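import Mathlib

namespace Cfsg.Agent.Lib.Helper82.HH

open Module

section P3

variable {K : Type*} [Field K] {V : Type*} [AddCommGroup V] [Module K V]

theorem schur_scalar [IsAlgClosed K] [FiniteDimensional K V] [Nontrivial V] {H : Type*} [Group H]
    (σ : Representation K H V)
    (hirr : ∀ W : Submodule K V, (∀ g, Submodule.map (σ g) W ≤ W) → W = ⊥ ∨ W = ⊤)
    (A : Module.End K V) (hA : ∀ g, A * σ g = σ g * A) : ∃ a : K, A = a • 1 := by
  obtain ⟨a, ha⟩ := Module.End.exists_eigenvalue A
  refine ⟨a, ?_⟩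
  have hinv : ∀ g, Submodule.map (σ g) (A.eigenspace a) ≤ A.eigenspace a := by
    intro g
    rintro _ ⟨w, hw, rfl⟩
    rw [SetLike.mem_coe, Module.End.mem_eigenspace_iff] at hw
    rw [Module.End.mem_eigenspace_iff]
    have := congrArg (fun f => f w) (hA g)
    simp only [Module.End.mul_apply] at this
    rw [this, hw]
    simp
  have h1 : A.eigenspace a = ⊤ := by
    rcases hirr (A.eigenspace a) hinv with h | h
    · exact absurd h ha
    · exact h
  ext v
  have : v ∈ A.eigenspace a := by rw [h1]; trivial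
  rw [Module.End.mem_eigenspace_iff] at this
  simpa using this

theorem avg_scalar [IsAlgClosed K] [FiniteDimensional K V] [Nontrivial V] {H : Type*} [Group H] [Fintype H]
    (σ : Representation K H V)
    (hirr : ∀ W : Submodule K V, (∀ g, Submodule.map (σ g) W ≤ W) → W = ⊥ ∨ W = ⊤)
    (R : Module.End K V) :
    ∃ a : K, ∑ h : H, σ h * R * σ h⁻¹ = a • 1 ∧ a * (finrank K V : K) = (Fintype.card H : K) * LinearMap.trace K V R := by
  obtain ⟨a, ha⟩ := schur_scalar σ hirr (∑ h : H, σ h * R * σ h⁻¹) (by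
    intro g
    rw [Finset.sum_mul, Finset.mul_sum]
    rw [← Equiv.sum_comp (Equiv.mulLeft g) (fun h => σ h * R * σ h⁻¹ * σ g)]
    refine Finset.sum_congr rfl (fun h _ => ?_)
    simp only [Equiv.coe_mulLeft, map_mul, mul_inv_rev, mul_assoc]
    rw [← map_mul σ g⁻¹ g, inv_mul_cancel, map_one, mul_one])
  refine ⟨a, ha, ?_⟩
  have h1 := congrArg (LinearMap.trace K V) ha
  rw [map_sum, map_smul, LinearMap.trace_one, smul_eq_mul] at h1
  rw [← h1]
  have h2 : ∀ h : H, LinearMap.trace K V (σ h * R * σ h⁻¹) = LinearMap.trace K V R := by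
    intro h
    rw [LinearMap.trace_mul_comm, ← mul_assoc, ← map_mul, inv_mul_cancel, map_one, one_mul]
  rw [Finset.sum_congr rfl (fun h _ => h2 h), Finset.sum_const, Finset.card_univ, nsmul_eq_mul]

theorem exists_fourier [IsAlgClosed K] [FiniteDimensional K V] [Nontrivial V] {H : Type*} [Group H] [Fintype H]
    (σ : Representation K H V)
    (hirr : ∀ W : Submodule K V, (∀ g, Submodule.map (σ g) W ≤ W) → W = ⊥ ∨ W = ⊤)
    (hH : (Fintype.card H : K) ≠ 0) :
    ∃ c : K, c ≠ 0 ∧ ∀ T : Module.End K V, ∑ h : H, (LinearMap.trace K V (T * σ h⁻¹)) • σ h = c • T := by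
  have htr : ∀ (φ : Dual K V) (u : V), LinearMap.trace K V (dualTensorHom K V V (φ ⊗ₜ u)) = φ u := by
    intro φ u
    rw [LinearMap.trace_eq_contract_apply, contractLeft_apply]
  have hd : (finrank K V : K) ≠ 0 := by
    obtain ⟨u, hu⟩ := exists_ne (0 : V)
    obtain ⟨φ, hφ⟩ : ∃ φ : Dual K V, φ u ≠ 0 := by
      by_contra h
      push Not at h
      exact hu ((Module.forall_dual_apply_eq_zero_iff K u).mp h)
    obtain ⟨a, -, ha⟩ := avg_scalar σ hirr (dualTensorHom K V V (φ ⊗ₜ u))
    intro h0
    rw [h0, mul_zero, htr] at ha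
    exact mul_ne_zero hH hφ ha.symm
  refine ⟨(Fintype.card H : K) / (finrank K V : K), div_ne_zero hH hd, ?_⟩
  intro T
  obtain ⟨t, rfl⟩ : ∃ t, dualTensorHom K V V t = T := by
    obtain ⟨t, ht⟩ := (dualTensorHomEquivOfBasis (N := V) (Module.finBasis K V)).surjective T
    exact ⟨t, by rw [← ht, dualTensorHomEquivOfBasis_apply]⟩
  induction t using TensorProduct.induction_on with
  | zero => simp
  | add t t' h h' =>
    simp only [map_add, add_mul, add_smul, Finset.sum_add_distrib, smul_add, h, h']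
  | tmul φ v =>
    ext u
    obtain ⟨a, ha1, ha2⟩ := avg_scalar σ hirr (dualTensorHom K V V (φ ⊗ₜ u))
    rw [htr] at ha2
    have h1 : ∀ S : Module.End K V, LinearMap.trace K V (dualTensorHom K V V (φ ⊗ₜ v) * S) = φ (S v) := by
      intro S
      rw [LinearMap.trace_mul_comm]
      have : S * dualTensorHom K V V (φ ⊗ₜ v) = dualTensorHom K V V (φ ⊗ₜ (S v)) := by
        ext w
        simp [dualTensorHom_apply]
      rw [this, htr]
    have h2 := congrArg (fun f => f v) ha1
    simp only [LinearMap.sum_apply, Module.End.mul_apply, dualTensorHom_apply, map_smul, LinearMap.smul_apply,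
      Module.End.one_apply] at h2
    simp only [LinearMap.sum_apply, LinearMap.smul_apply, h1, dualTensorHom_apply]
    rw [h2, smul_smul]
    congr 1
    rw [div_mul_eq_mul_div, eq_div_iff hd]
    exact ha2

end P3

end Cfsg.Agent.Lib.Helper82.HH
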