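import Mathlib
import Cfsg.Agent.Lib.Helper82.HHP3

namespace Cfsg.Agent.Lib.Helper82.HH

open Module

section P5

theorem finrank_eq_one_of_comm {K : Type*} [Field K] [IsAlgClosed K] {V : Type*} [AddCommGroup V] [Module K V]
    [FiniteDimensional K V] [Nontrivial V] {H : Type*} [Group H] (σ : Representation K H V)
    (hirr : ∀ W : Submodule K V, (∀ g, Submodule.map (σ g) W ≤ W) → W = ⊥ ∨ W = ⊤)
    (hcomm : ∀ a b : H, σ a * σ b = σ b * σ a) : finrank K V = 1 := by
  obtain ⟨v, hv⟩ := exists_ne (0 : V)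
  have h1 : ∀ g, Submodule.map (σ g) (K ∙ v) ≤ K ∙ v := by
    intro g
    obtain ⟨a, ha⟩ := schur_scalar σ hirr (σ g) (fun h => hcomm _ _)
    rintro _ ⟨w, hw, rfl⟩
    rw [ha]
    simpa using Submodule.smul_mem _ a hw
  rcases hirr _ h1 with h | h
  · exact absurd (Submodule.span_singleton_eq_bot.mp h) hv
  · rw [← finrank_top K V, ← h, finrank_span_singleton hv]

/-- sum of independent translates -/
theorem finrank_eq_card_mul {K : Type*} [Field K] {V : Type*} [AddCommGroup V] [Module K V]
    [FiniteDimensional K V] {ι : Type*} [Finite ι] (W : ι → Submodule K V) (hind : iSupIndep W)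
    (htop : iSup W = ⊤) (m : ℕ) (hm : ∀ i, finrank K (W i) = m) : finrank K V = Nat.card ι * m := by
  classical
  have := Fintype.ofFinite ι
  have hint := DirectSum.isInternal_submodule_of_iSupIndep_of_iSup_eq_top hind htop
  have e := LinearEquiv.ofBijective (DirectSum.coeLinearMap W) hint
  rw [← e.finrank_eq, Module.finrank_directSum]
  simp [hm, Nat.card_eq_fintype_card]

/-- the subgroup of elements whose image commutes with a given operator -/
def commSub {K : Type*} [Field K] {V : Type*} [AddCommGroup V] [Module K V]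
    {H : Type*} [Group H] (σ : Representation K H V) (T : V →ₗ[K] V) : Subgroup H where
  carrier := {g | T * σ g = σ g * T}
  one_mem' := by simp
  mul_mem' := by
    intro x y hx hy
    simp only [Set.mem_ofPred_eq, map_mul] at *
    rw [← mul_assoc, hx, mul_assoc, hy, mul_assoc]
  inv_mem' := by
    intro x hx
    simp only [Set.mem_ofPred_eq] at *
    have h1 : σ x⁻¹ * σ x = 1 := by rw [← map_mul]; simp
    have h2 : σ x * σ x⁻¹ = 1 := by rw [← map_mul]; simp
    calc T * σ x⁻¹ = (σ x⁻¹ * σ x) * T * σ x⁻¹ := by rw [h1, one_mul]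
      _ = σ x⁻¹ * (T * σ x) * σ x⁻¹ := by rw [hx]; simp only [mul_assoc]
      _ = σ x⁻¹ * T * (σ x * σ x⁻¹) := by simp only [mul_assoc]
      _ = σ x⁻¹ * T := by rw [h2, mul_one]

theorem mem_commSub {K : Type*} [Field K] {V : Type*} [AddCommGroup V] [Module K V]
    {H : Type*} [Group H] (σ : Representation K H V) (T : V →ₗ[K] V) (g : H) :
    g ∈ commSub σ T ↔ T * σ g = σ g * T := Iff.rfl

/-- Clifford step -/
theorem clifford_step {K : Type*} [Field K] [IsAlgClosed K] {V : Type*} [AddCommGroup V] [Module K V]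
    [FiniteDimensional K V] [Nontrivial V] {H : Type*} [Group H] [Finite H] (σ : Representation K H V)
    (hirr : ∀ W : Submodule K V, (∀ g, Submodule.map (σ g) W ≤ W) → W = ⊥ ∨ W = ⊤)
    (a : H) (l : H → K) (hl : ∀ g, σ a * σ g = l g • (σ g * σ a)) :
    ∃ W' : Submodule K V, W' ≠ ⊥ ∧ (∀ c ∈ commSub σ (σ a), Submodule.map (σ c) W' ≤ W') ∧
      (∀ U : Submodule K V, U ≤ W' → (∀ c ∈ commSub σ (σ a), Submodule.map (σ c) U ≤ U) →
        U = ⊥ ∨ U = W') ∧
      finrank K V = (commSub σ (σ a)).index * finrank K W' := by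
  classical
  set C := commSub σ (σ a) with hC
  have hinv1 : ∀ x : H, σ x⁻¹ * σ x = 1 := fun x => by rw [← map_mul]; simp
  have hinv2 : ∀ x : H, σ x * σ x⁻¹ = 1 := fun x => by rw [← map_mul]; simp
  have hinj : ∀ x : H, Function.Injective (σ x) := by
    intro x u v huv
    have := congrArg (σ x⁻¹) huv
    rwa [← Module.End.mul_apply, ← Module.End.mul_apply, hinv1] at this
  obtain ⟨μ, hμ⟩ := Module.End.exists_eigenvalue (σ a)
  have hμ0 : μ ≠ 0 := by
    rintro rfl
    obtain ⟨v, hv⟩ := hμ.exists_hasEigenvector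
    have h1 := hv.apply_eq_smul
    rw [zero_smul] at h1
    exact hv.2 (hinj a (by rw [h1, map_zero]))
  have hl0 : ∀ g, l g ≠ 0 := by
    intro g h0
    have h1 := hl g
    rw [h0, zero_smul, ← map_mul] at h1
    obtain ⟨v, hv⟩ := exists_ne (0 : V)
    exact hv (hinj (a * g) (by rw [h1]; simp))
  set E := Module.End.eigenspace (σ a) μ with hE
  have hEne : E ≠ ⊥ := hμ
  -- σ g maps E_ν into E_{l g ν}
  have hmap : ∀ (g : H) (ν : K) (v : V), v ∈ Module.End.eigenspace (σ a) ν →
      σ g v ∈ Module.End.eigenspace (σ a) (l g * ν) := by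
    intro g ν v hv
    rw [Module.End.mem_eigenspace_iff] at hv ⊢
    have := congrArg (fun T : V →ₗ[K] V => T v) (hl g)
    simp only [Module.End.mul_apply, LinearMap.smul_apply] at this
    rw [this, hv, map_smul, smul_smul]
  have hCl : ∀ g, g ∈ C ↔ l g = 1 := by
    intro g
    rw [hC, mem_commSub, hl g]
    constructor
    · intro h
      obtain ⟨v, hv⟩ := exists_ne (0 : V)
      have h2 := congrArg (fun T : V →ₗ[K] V => T v) h
      simp only [LinearMap.smul_apply] at h2
      have h3 : (σ g * σ a) v ≠ 0 := by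
        rw [← map_mul]
        intro h4
        exact hv (hinj (g * a) (by rw [h4, map_zero]))
      have h5 : (l g - 1) • (σ g * σ a) v = 0 := by rw [sub_smul, h2, one_smul, sub_self]
      rcases smul_eq_zero.mp h5 with h6 | h6
      · exact sub_eq_zero.mp h6
      · exact absurd h6 h3
    · intro h; rw [h, one_smul]
  have hEC : ∀ c ∈ C, Submodule.map (σ c) E ≤ E := by
    rintro c hc _ ⟨v, hv, rfl⟩
    have := hmap c μ v hv
    rwa [(hCl c).mp hc, one_mul] at this
  let P : Submodule K V → Prop := fun W => W ≠ ⊥ ∧ W ≤ E ∧ ∀ c ∈ C, Submodule.map (σ c) W ≤ W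
  obtain ⟨W', hW'P, hW'min⟩ : ∃ W', P W' ∧ ∀ U, P U → finrank K W' ≤ finrank K U := by
    have hne : {n | ∃ W, P W ∧ finrank K W = n}.Nonempty := ⟨_, E, ⟨hEne, le_rfl, hEC⟩, rfl⟩
    obtain ⟨W', h1, h2⟩ := Nat.sInf_mem hne
    exact ⟨W', h1, fun U hU => h2 ▸ Nat.sInf_le ⟨U, hU, rfl⟩⟩
  obtain ⟨hW'ne, hW'E, hW'C⟩ := hW'P
  refine ⟨W', hW'ne, hW'C, ?_, ?_⟩
  · intro U hU hUC
    by_cases hU0 : U = ⊥
    · exact Or.inl hU0
    · right
      exact Submodule.eq_of_le_of_finrank_le hU (hW'min U ⟨hU0, hU.trans hW'E, hUC⟩)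
  · -- the family of translates
    let Wf : H ⧸ C → Submodule K V := fun i => Submodule.map (σ i.out) W'
    have hlinj : Function.Injective (fun i : H ⧸ C => l i.out * μ) := by
      intro i j hij
      have h1 : l i.out = l j.out := mul_right_cancel₀ hμ0 hij
      have h2 : (i.out)⁻¹ * j.out ∈ C := by
        show σ a * σ ((i.out)⁻¹ * j.out) = σ ((i.out)⁻¹ * j.out) * σ a
        -- cancel
        have h3 : l i.out • (σ i.out * (σ a * σ ((i.out)⁻¹ * j.out))) =
            l i.out • (σ i.out * (σ ((i.out)⁻¹ * j.out) * σ a)) := by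
          calc l i.out • (σ i.out * (σ a * σ ((i.out)⁻¹ * j.out)))
              = (l i.out • (σ i.out * σ a)) * σ ((i.out)⁻¹ * j.out) := by
                rw [smul_mul_assoc, mul_assoc]
            _ = σ a * (σ i.out * σ ((i.out)⁻¹ * j.out)) := by rw [← hl, mul_assoc]
            _ = σ a * σ j.out := by rw [← map_mul]; simp
            _ = l i.out • (σ j.out * σ a) := by rw [hl, h1]
            _ = l i.out • (σ i.out * (σ ((i.out)⁻¹ * j.out) * σ a)) := by
                rw [← mul_assoc, ← map_mul σ i.out, mul_inv_cancel_left]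
        have h4 := smul_right_injective _ (hl0 i.out) h3
        have h5 := congrArg (fun T => σ (i.out)⁻¹ * T) h4
        simpa only [← mul_assoc, hinv1, one_mul] using h5
      have h3 : (QuotientGroup.mk i.out : H ⧸ C) = QuotientGroup.mk j.out := QuotientGroup.eq.mpr h2
      simpa using h3
    have hind : iSupIndep Wf := by
      refine ((Module.End.eigenspaces_iSupIndep (σ a)).comp hlinj).mono ?_
      rintro i _ ⟨w, hw, rfl⟩
      exact hmap _ _ _ (hW'E hw)
    have hfr : ∀ i, finrank K (Wf i) = finrank K W' := fun i =>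
      (Submodule.equivMapOfInjective (σ i.out) (hinj _) W').finrank_eq.symm
    have hinvt : ∀ g, Submodule.map (σ g) (iSup Wf) ≤ iSup Wf := by
      intro g
      rw [Submodule.map_iSup]
      refine iSup_le fun i => ?_
      rintro _ ⟨_, ⟨w, hw, rfl⟩, rfl⟩
      set j : H ⧸ C := QuotientGroup.mk (g * i.out) with hj
      have h1 : (j.out)⁻¹ * (g * i.out) ∈ C := by
        rw [← QuotientGroup.eq]; simp [hj]
      have h2 : σ g (σ i.out w) = σ j.out (σ ((j.out)⁻¹ * (g * i.out)) w) := by
        rw [← Module.End.mul_apply, ← Module.End.mul_apply, ← map_mul, ← map_mul]; simp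
      rw [h2]
      exact Submodule.mem_iSup_of_mem j ⟨_, hW'C _ h1 ⟨w, hw, rfl⟩, rfl⟩
    have htop : iSup Wf = ⊤ := by
      rcases hirr _ hinvt with h | h
      · exfalso
        have h1 : Wf (QuotientGroup.mk 1) = ⊥ := by
          rw [eq_bot_iff, ← h]; exact le_iSup Wf _
        have h2 := hfr (QuotientGroup.mk 1)
        rw [h1, finrank_bot] at h2
        exact hW'ne (Submodule.finrank_eq_zero.mp h2.symm)
      · exact h
    rw [finrank_eq_card_mul Wf hind htop _ hfr]
    rfl

universe u v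

theorem finrank_pow_aux {K : Type*} [Field K] [IsAlgClosed K] (q : ℕ) [Fact q.Prime] :
    ∀ (n : ℕ) (H : Type u) [Group H] [Finite H] (V : Type v) [AddCommGroup V] [Module K V]
      [FiniteDimensional K V] [Nontrivial V], Nat.card H = n → IsPGroup q H → ∀ σ : Representation K H V,
      (∀ W : Submodule K V, (∀ g, Submodule.map (σ g) W ≤ W) → W = ⊥ ∨ W = ⊤) →
      ∃ b : ℕ, finrank K V = q ^ b := by
  intro n
  induction n using Nat.strong_induction_on with
  | _ n ih =>
  intro H _ _ V _ _ _ _ hn hH σ hirr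
  classical
  by_cases hcomm : ∀ a b : H, σ a * σ b = σ b * σ a
  · exact ⟨0, by rw [pow_zero]; exact finrank_eq_one_of_comm σ hirr hcomm⟩
  -- the "scalar" subgroup
  let Z : Subgroup H := ⨅ g, commSub σ (σ g)
  have hZmem : ∀ h, h ∈ Z ↔ ∀ g, σ g * σ h = σ h * σ g := by
    intro h
    simp only [Z, Subgroup.mem_iInf, mem_commSub]
  have hZn : Z.Normal := by
    constructor
    intro h hh x
    rw [hZmem] at hh ⊢
    have h1 : σ (x * h * x⁻¹) = σ h := by
      rw [map_mul, map_mul, hh x, mul_assoc, ← map_mul]; simp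
    intro g
    rw [h1, hh]
  have hZtop : Z ≠ ⊤ := by
    intro h
    apply hcomm
    intro a b
    have : b ∈ Z := by rw [h]; trivial
    exact (hZmem b).mp this a
  have : Nontrivial (H ⧸ Z) := QuotientGroup.nontrivial_iff.mpr hZtop
  have hcn := (hH.to_quotient Z).center_nontrivial
  obtain ⟨⟨abar, habar⟩, hne⟩ := exists_ne (1 : Subgroup.center (H ⧸ Z))
  obtain ⟨a, rfl⟩ := QuotientGroup.mk_surjective abar
  have haZ : a ∉ Z := by
    intro h
    apply hne
    ext
    simpa using (QuotientGroup.eq_one_iff a).mpr h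
  have hz : ∀ g, (g * a)⁻¹ * (a * g) ∈ Z := by
    intro g
    rw [← QuotientGroup.eq]
    have := Subgroup.mem_center_iff.mp habar (QuotientGroup.mk g)
    simpa using this
  have hsc : ∀ g, ∃ c : K, σ ((g * a)⁻¹ * (a * g)) = c • 1 := by
    intro g
    exact schur_scalar σ hirr _ (fun h => ((hZmem _).mp (hz g) h).symm)
  choose l hl using hsc
  have hl' : ∀ g, σ a * σ g = l g • (σ g * σ a) := by
    intro g
    have h1 : σ a * σ g = σ (g * a) * σ ((g * a)⁻¹ * (a * g)) := by
      rw [← map_mul, ← map_mul, mul_inv_cancel_left]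
    rw [h1, hl, map_mul]
    simp
  obtain ⟨W', hW'ne, hW'C, hW'min, hfr⟩ := clifford_step σ hirr a l hl'
  set C := commSub σ (σ a) with hC
  have hCtop : C ≠ ⊤ := by
    intro h
    apply haZ
    rw [hZmem]
    intro g
    have : g ∈ C := by rw [h]; trivial
    exact ((mem_commSub σ (σ a) g).mp this).symm
  have hlt : Nat.card C < n := by
    rw [← hn]
    exact lt_of_le_of_ne (Subgroup.card_le_card_group C) (fun h => hCtop (C.eq_top_of_card_eq h))
  let τ : Representation K C W' :=
    { toFun := fun c => (σ c).restrict (fun w hw => hW'C c c.2 ⟨w, hw, rfl⟩)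
      map_one' := by ext; simp
      map_mul' := by intro x y; ext; simp }
  have : Nontrivial W' := Submodule.nontrivial_iff_ne_bot.mpr hW'ne
  obtain ⟨b, hb⟩ := ih _ hlt C W' rfl (hH.to_subgroup C) τ (by
    intro U hU
    have h1 := hW'min (U.map W'.subtype) (Submodule.map_subtype_le _ _) (by
      rintro c hc _ ⟨_, ⟨u, hu, rfl⟩, rfl⟩
      exact ⟨τ ⟨c, hc⟩ u, hU ⟨c, hc⟩ ⟨u, hu, rfl⟩, rfl⟩)
    rcases h1 with h1 | h1
    · left
      exact Submodule.map_injective_of_injective W'.injective_subtype (by rw [h1, Submodule.map_bot])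
    · right
      rw [eq_top_iff]
      intro w _
      have : (w : V) ∈ U.map W'.subtype := by rw [h1]; exact w.2
      obtain ⟨u, hu, hu'⟩ := this
      have : u = w := Subtype.ext hu'
      rwa [← this])
  obtain ⟨k, hk⟩ := hH.index C
  exact ⟨k + b, by rw [hfr, hk, hb, pow_add]⟩

theorem exists_finrank_eq_pow {K : Type*} [Field K] [IsAlgClosed K] {V : Type*} [AddCommGroup V]
    [Module K V] [FiniteDimensional K V] [Nontrivial V] {H : Type*} [Group H] [Finite H] (q : ℕ)
    [Fact q.Prime] (hH : IsPGroup q H) (σ : Representation K H V)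
    (hirr : ∀ W : Submodule K V, (∀ g, Submodule.map (σ g) W ≤ W) → W = ⊥ ∨ W = ⊤) :
    ∃ b : ℕ, finrank K V = q ^ b :=
  finrank_pow_aux q _ H V rfl hH σ hirr

end P5

end Cfsg.Agent.Lib.Helper82.HH
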