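import Mathlib
import Cfsg.Agent.Lib.Helper58.HHP1
import Cfsg.Agent.Lib.Helper58.HHP2
import Cfsg.Agent.Lib.Helper58.HHP4
import Cfsg.Agent.Lib.Helper58.HHP6
import Cfsg.Agent.Lib.Helper82.HHP3
import Cfsg.Agent.Lib.Helper82.HHP5

namespace Cfsg.Agent.Lib.Helper82.HH

open Module Cfsg.Agent.Lib.Helper58.HH


section Asm

variable {K : Type*} [Field K] {V : Type*} [AddCommGroup V] [Module K V]

theorem sub_one_pow_eq_zero (p : ℕ) [Fact p.Prime] [CharP K p] [Nontrivial V] (X : Module.End K V) (n : ℕ)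
    (h : X ^ p ^ n = 1) : (X - 1) ^ p ^ n = 0 := by
  have : CharP (Module.End K V) p := charP_of_injective_algebraMap' K p
  rw [sub_pow_char_pow_of_commute p n (Commute.one_right X), h, one_pow, sub_self]

theorem pow_finrank_eq_zero [FiniteDimensional K V] (ν : Module.End K V) (h : IsNilpotent ν) :
    ν ^ finrank K V = 0 := by
  have h1 := (LinearMap.isNilpotent_iff_charpoly ν).mp h
  have h2 := LinearMap.aeval_self_charpoly ν
  rw [h1] at h2
  simpa using h2

end Asm


section Grp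

theorem mem_center_of_mem {G : Type*} [Group G] (p q : ℕ) [Fact p.Prime] [Fact q.Prime]
    (hpq : p ≠ q) (Q : Subgroup G) (hQ : IsPGroup q Q) (x : G) (hx : IsPGroup p (Subgroup.zpowers x)) (g : G)
    (hg : g ∈ Q) (h : g ∈ Subgroup.zpowers x ⊔ Subgroup.center G) : g ∈ Subgroup.center G := by
  have h' : g ∈ ((Subgroup.zpowers x ⊔ Subgroup.center G : Subgroup G) : Set G) := h
  rw [Subgroup.mul_normal] at h'
  obtain ⟨y, hy, z, hz, rfl⟩ := h'
  obtain ⟨n, hn⟩ := hx ⟨y, hy⟩
  obtain ⟨a, ha⟩ := hQ ⟨y * z, hg⟩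
  have hn' : y ^ p ^ n = 1 := by simpa using congrArg Subtype.val hn
  have ha' : (y * z) ^ q ^ a = 1 := by simpa using congrArg Subtype.val ha
  have hcomm : Commute y z := (Subgroup.mem_center_iff.mp hz) y
  rw [hcomm.mul_pow] at ha'
  have h1 : y ^ q ^ a ∈ Subgroup.center G := by
    rw [eq_inv_of_mul_eq_one_left ha']
    exact Subgroup.inv_mem _ (Subgroup.pow_mem _ hz _)
  have hcop : Nat.Coprime (q ^ a) (orderOf y) := by
    have h2 : orderOf y ∣ p ^ n := orderOf_dvd_of_pow_eq_one hn'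
    refine Nat.Coprime.coprime_dvd_right h2 ?_
    exact Nat.Coprime.pow _ _ ((Nat.coprime_primes Fact.out Fact.out).mpr hpq.symm)
  obtain ⟨m, hm⟩ := exists_pow_eq_self_of_coprime hcop
  have h3 : y ∈ Subgroup.center G := by rw [← hm]; exact Subgroup.pow_mem _ h1 _
  exact Subgroup.mul_mem _ h3 hz

end Grp


section Main

open Subgroup

variable {K : Type*} [Field K] {V : Type*} [AddCommGroup V] [Module K V]

theorem main_bound {G : Type*} [Group G] [Finite G] (p q : ℕ) [Fact p.Prime] [Fact q.Prime] (hpq : p ≠ q)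
    (Q : Subgroup G) [Q.Normal] (hQ : IsPGroup q Q) (x : G) (hx : IsPGroup p (Subgroup.zpowers x))
    (hC : ∀ y ∈ Subgroup.zpowers x, y ≠ 1 →
      Subgroup.centralizer ({y} : Set G) = Subgroup.zpowers x ⊔ Subgroup.center G)
    [IsAlgClosed K] [CharP K p] [FiniteDimensional K V] [Nontrivial V] (ρ : Representation K G V)
    (hirr : ∀ W : Submodule K V, (∀ g ∈ Q, Submodule.map (ρ g) W ≤ W) → W = ⊥ ∨ W = ⊤) :
    orderOf x * finrank K (LinearMap.ker (LinearMap.mulLeft K (ρ x - 1) - LinearMap.mulRight K (ρ x - 1)))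
      ≤ (finrank K V) ^ 2 + (orderOf x - 1) := by
  classical
  haveI : Fintype G := Fintype.ofFinite G
  set N := orderOf x with hNdef
  have hNpos : 0 < N := orderOf_pos x
  obtain ⟨n, hn⟩ : ∃ n, N = p ^ n := by
    obtain ⟨n, hn⟩ := (IsPGroup.iff_card.mp hx)
    exact ⟨n, by rw [hNdef, ← Nat.card_zpowers, hn]⟩
  -- the representation of Q
  let σ : Representation K Q V := ρ.comp Q.subtype
  have hirrσ : ∀ W : Submodule K V, (∀ g, Submodule.map (σ g) W ≤ W) → W = ⊥ ∨ W = ⊤ := by
    intro W hW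
    exact hirr W (fun g hg => hW ⟨g, hg⟩)
  have hcardQ : (Fintype.card Q : K) ≠ 0 := by
    obtain ⟨a, ha⟩ := (IsPGroup.iff_card.mp hQ)
    rw [Fintype.card_eq_nat_card, ha]
    push_cast
    apply pow_ne_zero
    intro h0
    rw [CharP.cast_eq_zero_iff K p q] at h0
    exact hpq ((Nat.prime_dvd_prime_iff_eq Fact.out Fact.out).mp h0)
  obtain ⟨c, hc0, hc⟩ := exists_fourier σ hirrσ hcardQ
  have hxx : ρ x * ρ x⁻¹ = 1 := by rw [← map_mul, mul_inv_cancel, map_one]
  have hxx' : ρ x⁻¹ * ρ x = 1 := by rw [← map_mul, inv_mul_cancel, map_one]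
  -- the free set
  let Xs := {g : G // g ∈ Q ∧ g ∉ center G}
  have hconj : ∀ (y g : G), (g ∈ Q ∧ g ∉ center G) → (y⁻¹ * g * y ∈ Q ∧ y⁻¹ * g * y ∉ center G) := by
    intro y g hg
    refine ⟨?_, ?_⟩
    · have := (inferInstance : Q.Normal).conj_mem g hg.1 y⁻¹
      simpa using this
    · intro h
      apply hg.2
      have := (inferInstance : (center G).Normal).conj_mem _ h y
      simpa [mul_assoc] using this
  let π : Equiv.Perm Xs :=
    { toFun := fun g => ⟨x⁻¹ * g.1 * x, hconj x g.1 g.2⟩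
      invFun := fun g => ⟨x * g.1 * x⁻¹, by simpa using hconj x⁻¹ g.1 g.2⟩
      left_inv := fun g => by ext; simp [mul_assoc]
      right_inv := fun g => by ext; simp [mul_assoc] }
  have hπ : ∀ g : Xs, ((π g : Xs) : G) = x⁻¹ * g.1 * x := fun g => rfl
  have hπs : ∀ g : Xs, ((π.symm g : Xs) : G) = x * g.1 * x⁻¹ := fun g => rfl
  have hπpow : ∀ (i : ℕ) (g : Xs), (((π ^ i) g : Xs) : G) = (x ^ i)⁻¹ * g.1 * x ^ i := by
    intro i
    induction i with
    | zero => intro g; simp
    | succ k ih =>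
      intro g
      rw [pow_succ', Equiv.Perm.mul_apply, hπ, ih, pow_succ]
      simp [mul_assoc]
  have hπN : π ^ N = 1 := by
    ext g
    rw [hπpow, hNdef, pow_orderOf_eq_one]
    simp
  have hfree : ∀ i, 0 < i → i < N → ∀ a, (π ^ i) a ≠ a := by
    intro i hi hiN a ha
    have h1 : (x ^ i)⁻¹ * a.1 * x ^ i = a.1 := by rw [← hπpow, ha]
    have hne : x ^ i ≠ 1 := by
      intro h
      exact absurd (orderOf_le_of_pow_eq_one hi h) (not_le.mpr hiN)
    have h2 : a.1 ∈ centralizer ({x ^ i} : Set G) := by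
      rw [mem_centralizer_singleton_iff]
      calc a.1 * x ^ i = x ^ i * ((x ^ i)⁻¹ * a.1 * x ^ i) := by group
        _ = x ^ i * a.1 := by rw [h1]
    rw [hC (x ^ i) (Subgroup.pow_mem _ (mem_zpowers x) i) hne] at h2
    exact a.2.2 (mem_center_of_mem p q hpq Q hQ x hx a.1 a.2.1 h2)
  have hP4 := mul_finrank_invariants_le (K := K) π N hπN hfree
  -- scalars
  have hscal : ∀ z : G, z ∈ Q → z ∈ center G → ∀ T : Module.End K V,
      (LinearMap.trace K V (T * ρ z⁻¹)) • ρ z = (LinearMap.trace K V T) • (1 : Module.End K V) := by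
    intro z hzQ hz T
    obtain ⟨l, hl⟩ := schur_scalar σ hirrσ (ρ z) (by
      intro g
      change ρ z * ρ g.1 = ρ g.1 * ρ z
      rw [← map_mul, ← map_mul, (mem_center_iff.mp hz) g.1])
    have h1 : l • ρ z⁻¹ = 1 := by
      have : ρ z * ρ z⁻¹ = 1 := by rw [← map_mul, mul_inv_cancel, map_one]
      rw [hl] at this
      simpa using this
    have h2 : LinearMap.trace K V (T * ρ z⁻¹) * l = LinearMap.trace K V T := by
      rw [mul_comm, ← smul_eq_mul, ← map_smul, ← mul_smul_comm, h1, mul_one]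
    rw [hl, smul_smul, h2]
  let κ : K := ((Finset.univ.filter (fun g : G => g ∈ Q ∧ g ∈ center G)).card : K)
  let A : Module.End K (Xs → K) := LinearMap.funLeft K K π
  let γF : Module.End K ((Xs → K) × K) := LinearMap.prodMap A LinearMap.id
  let γU : Module.End K (Module.End K V) := LinearMap.mulLeft K (ρ x) * LinearMap.mulRight K (ρ x⁻¹)
  let α : Module.End K V →ₗ[K] ((Xs → K) × K) :=
    LinearMap.prod (LinearMap.pi (fun g : Xs => (LinearMap.trace K V).comp (LinearMap.mulRight K (ρ (g.1)⁻¹))))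
      (LinearMap.trace K V)
  let β : ((Xs → K) × K) →ₗ[K] Module.End K V :=
    { toFun := fun f => ∑ g : Xs, f.1 g • ρ g.1 + (κ * f.2) • 1
      map_add' := by
        intro f f'
        simp only [Prod.fst_add, Prod.snd_add, Pi.add_apply, add_smul, Finset.sum_add_distrib, mul_add]
        abel
      map_smul' := by
        intro a f
        simp only [Prod.smul_fst, Prod.smul_snd, Pi.smul_apply, smul_eq_mul, RingHom.id_apply, smul_add,
          Finset.smul_sum, smul_smul]
        congr 2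
        ring }
  have hα : ∀ T, α (γU T) = γF (α T) := by
    intro T
    ext g
    · change LinearMap.trace K V ((ρ x * (T * ρ x⁻¹)) * ρ (g.1)⁻¹) = LinearMap.trace K V (T * ρ ((π g).1)⁻¹)
      rw [hπ, mul_assoc, LinearMap.trace_mul_comm]
      congr 1
      simp only [mul_inv_rev, inv_inv, map_mul, mul_assoc]
    · change LinearMap.trace K V (ρ x * (T * ρ x⁻¹)) = LinearMap.trace K V T
      rw [LinearMap.trace_mul_comm, mul_assoc, hxx', mul_one]
  have hβ : ∀ f, β (γF f) = γU (β f) := by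
    intro f
    change ∑ g : Xs, f.1 (π g) • ρ g.1 + (κ * f.2) • 1 =
      ρ x * ((∑ g : Xs, f.1 g • ρ g.1 + (κ * f.2) • 1) * ρ x⁻¹)
    rw [add_mul, mul_add, Finset.sum_mul, Finset.mul_sum]
    congr 1
    · rw [← Equiv.sum_comp π (fun g => ρ x * (f.1 g • ρ g.1 * ρ x⁻¹))]
      refine Finset.sum_congr rfl (fun g _ => ?_)
      rw [hπ]
      simp only [map_mul, smul_mul_assoc, mul_smul_comm]
      congr 1
      rw [← mul_assoc, ← mul_assoc, ← mul_assoc, hxx, one_mul, mul_assoc, hxx, mul_one]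
    · simp [hxx]
  have hβα : ∀ T, β (α T) = c • T := by
    intro T
    change ∑ g : Xs, (LinearMap.trace K V (T * ρ (g.1)⁻¹)) • ρ g.1 + (κ * LinearMap.trace K V T) • 1 = c • T
    rw [← hc T]
    let φ : G → Module.End K V := fun g => (LinearMap.trace K V (T * ρ g⁻¹)) • ρ g
    have e1 : ∑ h : Q, (LinearMap.trace K V (T * σ h⁻¹)) • σ h = ∑ g ∈ Finset.univ.filter (fun g : G => g ∈ Q), φ g := by
      rw [Finset.sum_subtype (Finset.univ.filter (fun g : G => g ∈ Q)) (p := fun g => g ∈ Q) (by simp) φ]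
      rfl
    have e2 : ∑ g : Xs, (LinearMap.trace K V (T * ρ (g.1)⁻¹)) • ρ g.1 =
        ∑ g ∈ Finset.univ.filter (fun g : G => g ∈ Q ∧ g ∉ center G), φ g := by
      rw [Finset.sum_subtype (Finset.univ.filter (fun g : G => g ∈ Q ∧ g ∉ center G))
        (p := fun g => g ∈ Q ∧ g ∉ center G) (by simp) φ]
    have e3 : ∑ g ∈ Finset.univ.filter (fun g : G => g ∈ Q ∧ g ∈ center G), φ g =
        (κ * LinearMap.trace K V T) • 1 := by
      rw [Finset.sum_congr rfl (g := fun _ => (LinearMap.trace K V T) • (1 : Module.End K V))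
        (fun g hg => hscal g (Finset.mem_filter.mp hg).2.1 (Finset.mem_filter.mp hg).2.2 T)]
      rw [Finset.sum_const, ← Nat.cast_smul_eq_nsmul K, smul_smul]
    rw [e1, e2, ← e3, ← Finset.sum_filter_add_sum_filter_not (Finset.univ.filter (fun g : G => g ∈ Q))
      (fun g => g ∈ center G) φ, Finset.filter_filter, Finset.filter_filter, add_comm]
  have hγFpow : ∀ (m : ℕ) (f : (Xs → K) × K), (γF ^ m) f = (fun g => f.1 ((π ^ m) g), f.2) := by
    intro m
    induction m with
    | zero => intro f; simp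
    | succ k ih =>
      intro f
      rw [pow_succ, Module.End.mul_apply, ih]
      ext g
      · change f.1 (π ((π ^ k) g)) = f.1 ((π ^ (k + 1)) g)
        rw [pow_succ', Equiv.Perm.mul_apply]
      · rfl
  have hγFN : (γF - 1) ^ N = 0 := by
    rw [hn]
    apply sub_one_pow_eq_zero p
    rw [← hn]
    refine LinearMap.ext (fun f => ?_)
    rw [hγFpow, hπN]
    rfl
  have hkerF : finrank K (LinearMap.ker (γF - 1)) ≤ finrank K (LinearMap.ker (A - 1)) + 1 := by
    let j : LinearMap.ker (γF - 1) →ₗ[K] (LinearMap.ker (A - 1)) × K :=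
      LinearMap.prod (LinearMap.codRestrict _ ((LinearMap.fst K _ _).comp (Submodule.subtype _)) (by
        intro f
        have hf := f.2
        rw [LinearMap.mem_ker] at hf ⊢
        have := congrArg Prod.fst hf
        exact this)) ((LinearMap.snd K _ _).comp (Submodule.subtype _))
    have hj : Function.Injective j := by
      intro f f' h
      have h1 := congrArg (fun t => (t.1 : Xs → K)) h
      have h2 := congrArg Prod.snd h
      exact Subtype.ext (Prod.ext h1 h2)
    have := LinearMap.finrank_le_finrank_of_injective hj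
    rwa [Module.finrank_prod, Module.finrank_self] at this
  have hF : N * finrank K (LinearMap.ker (γF - 1)) ≤ finrank K ((Xs → K) × K) + (N - 1) := by
    rw [Module.finrank_prod, Module.finrank_self, Module.finrank_fintype_fun_eq_card]
    calc N * finrank K (LinearMap.ker (γF - 1)) ≤ N * (finrank K (LinearMap.ker (A - 1)) + 1) :=
          Nat.mul_le_mul_left _ hkerF
      _ = N * finrank K (LinearMap.ker (A - 1)) + N := by ring
      _ ≤ Fintype.card Xs + N := Nat.add_le_add_right hP4 _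
      _ = Fintype.card Xs + 1 + (N - 1) := by omega
  have hfin := split_bound γU γF α β c hc0 hα hβ hβα N (N - 1) hγFN hF
  have hker : LinearMap.ker (γU - 1) =
      LinearMap.ker (LinearMap.mulLeft K (ρ x - 1) - LinearMap.mulRight K (ρ x - 1)) := by
    ext T
    rw [LinearMap.mem_ker, LinearMap.mem_ker]
    change ρ x * (T * ρ x⁻¹) - T = 0 ↔ (ρ x - 1) * T - T * (ρ x - 1) = 0
    constructor
    · intro h
      have h1 : ρ x * T = T * ρ x := by
        have h2 := sub_eq_zero.mp h
        calc ρ x * T = ρ x * (T * (ρ x⁻¹ * ρ x)) := by rw [hxx', mul_one]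
          _ = (ρ x * (T * ρ x⁻¹)) * ρ x := by simp only [mul_assoc]
          _ = T * ρ x := by rw [h2]
      rw [sub_mul, mul_sub, h1]; simp
    · intro h
      have h1 : ρ x * T = T * ρ x := by
        rw [sub_mul, mul_sub] at h
        simpa [sub_eq_zero] using h
      rw [← mul_assoc, h1, mul_assoc, hxx, mul_one, sub_self]
  have hEnd : finrank K (Module.End K V) = finrank K V * finrank K V := Module.finrank_linearMap K K V V
  rw [hker, hEnd] at hfin
  rw [sq]
  exact hfin

end Main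


section Final

theorem arith_core {N s d c : ℕ} (hs2 : 2 ≤ s) (hsN : s + 1 ≤ N) (hsd : s ≤ d)
    (h1 : d ^ 2 ≤ s * c) (h2 : N * c ≤ d ^ 2 + (N - 1)) : s + 1 = N ∧ d = s := by
  -- N d² ≤ N s c ≤ s d² + s (N-1)
  have h3 : N * d ^ 2 ≤ s * (d ^ 2 + (N - 1)) := by
    calc N * d ^ 2 ≤ N * (s * c) := Nat.mul_le_mul_left _ h1
      _ = s * (N * c) := by ring
      _ ≤ s * (d ^ 2 + (N - 1)) := Nat.mul_le_mul_left _ h2
  obtain ⟨t, rfl⟩ : ∃ t, N = s + 1 + t := ⟨N - (s + 1), by omega⟩
  obtain ⟨e, rfl⟩ : ∃ e, d = s + e := ⟨d - s, by omega⟩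
  have h4 : s + 1 + t - 1 = s + t := by omega
  rw [h4] at h3
  obtain ⟨r, rfl⟩ : ∃ r, s = r + 2 := ⟨s - 2, by omega⟩
  have ht : t = 0 := by
    by_contra ht
    have : 1 ≤ t := Nat.one_le_iff_ne_zero.mpr ht
    nlinarith [Nat.zero_le r, Nat.zero_le e, Nat.zero_le (r * t), Nat.zero_le (e * t), Nat.zero_le (r*e),
      Nat.zero_le (r * r * t), Nat.zero_le (e * e * t), Nat.zero_le (r * e * t)]
  subst ht
  have he : e = 0 := by
    by_contra he
    have : 1 ≤ e := Nat.one_le_iff_ne_zero.mpr he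
    nlinarith [Nat.zero_le r, Nat.zero_le (r * e), Nat.zero_le (e * e)]
  subst he
  exact ⟨by omega, by omega⟩

end Final

end Cfsg.Agent.Lib.Helper82.HH
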