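import Mathlib
import Cfsg.Agent.Lib.Helper53.HH.Defs
import Cfsg.Agent.Lib.Helper82.HHP3
import Cfsg.Agent.S4282

namespace Cfsg.Agent.Lib.Helper82.HH

open Module Cfsg.Agent.Lib.Helper53.HH
open scoped Pointwise

variable {K : Type*} [Field K] {U : Type*} [AddCommGroup U] [Module K U]

/-- in a cyclic `p`-group, the element of order `p` is a power of every nontrivial element -/
theorem commute_top_of_commute {Γ : Type*} [Group Γ] (p : ℕ) [Fact p.Prime] (X : Γ) (n : ℕ) (hn : 1 ≤ n)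
    (hX : X ^ p ^ n = 1) (y : Γ) (hy : y ∈ Subgroup.zpowers X) (hy1 : y ≠ 1) (a : Γ) (ha : Commute a y) :
    Commute a (X ^ p ^ (n - 1)) := by
  have hp := (Fact.out : p.Prime)
  have hfin : IsOfFinOrder X := isOfFinOrder_iff_pow_eq_one.mpr ⟨p ^ n, pow_pos hp.pos _, hX⟩
  obtain ⟨j, hj⟩ := (hfin.mem_powers_iff_mem_zpowers).mpr hy
  replace hj : X ^ j = y := hj
  subst hj
  have hj0 : j ≠ 0 := by rintro rfl; simp at hy1
  obtain ⟨e, j', hj', rfl⟩ := Nat.exists_eq_pow_mul_and_not_dvd hj0 p hp.ne_one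
  have he : e < n := by
    by_contra hcon
    apply hy1
    obtain ⟨t, rfl⟩ := Nat.exists_eq_add_of_le (not_lt.mp hcon)
    rw [pow_add, mul_assoc, pow_mul, hX, one_pow]
  set Y := X ^ p ^ (n - 1) with hY
  have hYp : Y ^ p = 1 := by
    rw [hY, ← pow_mul, ← pow_succ, Nat.sub_add_cancel hn, hX]
  have h1 : (X ^ (p ^ e * j')) ^ (p ^ (n - 1 - e)) = Y ^ j' := by
    rw [hY, ← pow_mul, ← pow_mul]
    congr 1
    have : p ^ (n - 1) = p ^ e * p ^ (n - 1 - e) := by rw [← pow_add]; congr 1; omega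
    rw [this]; ring
  have hcop : j'.Coprime (orderOf Y) :=
    Nat.Coprime.coprime_dvd_right (orderOf_dvd_of_pow_eq_one hYp)
      ((Nat.Prime.coprime_iff_not_dvd hp).mpr hj').symm
  obtain ⟨m, hm⟩ := exists_pow_eq_self_of_coprime hcop
  rw [← hm, ← h1]
  exact (ha.pow_right _).pow_right _

theorem core_lin [IsAlgClosed K] [FiniteDimensional K U] (p q : ℕ) [Fact p.Prime] [Fact q.Prime]
    (hpq : p ≠ q) [CharP K p] (𝒬 : Subgroup (U ≃ₗ[K] U)) [Finite 𝒬] (hq : IsPGroup q 𝒬)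
    (h : Irr 𝒬 ⊤) (X : U ≃ₗ[K] U) (hnorm : ∀ g ∈ 𝒬, X * g * X⁻¹ ∈ 𝒬) (n : ℕ) (hn : 1 ≤ n)
    (hX : X ^ p ^ n = 1) (hnc : ∃ g ∈ 𝒬, X ^ p ^ (n - 1) * g ≠ g * X ^ p ^ (n - 1))
    (hsemi : ∀ d ∈ 𝒬, X ^ p ^ (n - 1) * d = d * X ^ p ^ (n - 1) → ∀ g ∈ 𝒬, d * g = g * d)
    (r : ℕ) (hr : (X.toLinearMap - 1 : Module.End K U) ^ r = 0) :
    p ^ n ≤ r ∨ ∃ m : ℕ, 1 ≤ m ∧ p ^ n - 1 = q ^ m ∧ ¬ IsMulCommutative 𝒬 ∧ p ^ n - 1 ≤ r := by
  classical
  have hp := (Fact.out : p.Prime)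
  have hNT : Nontrivial U := by
    have : Nontrivial (Submodule K U) := ⟨⟨⊤, ⊥, h.1⟩⟩
    exact (Submodule.nontrivial_iff K).mp this
  -- powers of X normalise
  have hpow : ∀ k : ℕ, ∀ g ∈ 𝒬, X ^ k * g * (X ^ k)⁻¹ ∈ 𝒬 := by
    intro k
    induction k with
    | zero => intro g hg; simpa using hg
    | succ k ih =>
      intro g hg
      have := hnorm _ (ih g hg)
      have e : X ^ (k + 1) * g * (X ^ (k + 1))⁻¹ = X * (X ^ k * g * (X ^ k)⁻¹) * X⁻¹ := by
        rw [pow_succ']; group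
      rw [e]; exact this
  have hXinv : X⁻¹ = X ^ (p ^ n - 1) := by
    rw [inv_eq_iff_mul_eq_one, ← pow_succ', Nat.sub_add_cancel (Nat.one_le_pow _ _ hp.pos), hX]
  have hnorm' : ∀ g ∈ 𝒬, X⁻¹ * g * X ∈ 𝒬 := by
    intro g hg
    have := hpow (p ^ n - 1) g hg
    rwa [← hXinv, inv_inv] at this
  have hXN : X ∈ Subgroup.normalizer (𝒬 : Set (U ≃ₗ[K] U)) := by
    rw [Subgroup.mem_normalizer_iff]
    intro g
    refine ⟨hnorm g, fun hg => ?_⟩
    have := hnorm' _ hg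
    simpa [mul_assoc] using this
  set Γ : Subgroup (U ≃ₗ[K] U) := 𝒬 ⊔ Subgroup.zpowers X with hΓ
  have hQΓ : 𝒬 ≤ Γ := le_sup_left
  have hZΓ : Subgroup.zpowers X ≤ Γ := le_sup_right
  have hXΓ : X ∈ Γ := hZΓ (Subgroup.mem_zpowers X)
  have hZN : Subgroup.zpowers X ≤ Subgroup.normalizer (𝒬 : Set (U ≃ₗ[K] U)) :=
    (Subgroup.zpowers_le).mpr hXN
  have hΓN : Γ ≤ Subgroup.normalizer (𝒬 : Set (U ≃ₗ[K] U)) := sup_le Subgroup.le_normalizer hZN
  have hfinX : IsOfFinOrder X := isOfFinOrder_iff_pow_eq_one.mpr ⟨p ^ n, pow_pos hp.pos _, hX⟩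
  have hZfin : Finite (Subgroup.zpowers X) := by
    exact finite_zpowers.mpr hfinX
  have hΓset : (Γ : Set (U ≃ₗ[K] U)) = (𝒬 : Set (U ≃ₗ[K] U)) * (Subgroup.zpowers X : Set (U ≃ₗ[K] U)) :=
    Subgroup.coe_mul_of_right_le_normalizer_left 𝒬 (Subgroup.zpowers X) hZN
  have hΓfin : Finite Γ := by
    have h1 : (Γ : Set (U ≃ₗ[K] U)).Finite := by
      rw [hΓset]
      exact Set.Finite.mul (Set.toFinite _) (Set.toFinite _)
    exact h1
  have hQn : (𝒬.subgroupOf Γ).Normal := (Subgroup.normal_subgroupOf_iff_le_normalizer hQΓ).mpr hΓN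
  set Q : Subgroup Γ := 𝒬.subgroupOf Γ with hQdef
  set x : Γ := ⟨X, hXΓ⟩ with hx
  have hQp : IsPGroup q Q := hq.comap_subtype
  have hxpow : x ^ p ^ n = 1 := Subtype.ext (by simpa using hX)
  have hYne : X ^ p ^ (n - 1) ≠ 1 := by
    intro h1
    obtain ⟨g, _, hg⟩ := hnc
    apply hg
    rw [h1, one_mul, mul_one]
  have hordX : orderOf X = p ^ n := by
    obtain ⟨n', rfl⟩ : ∃ n', n = n' + 1 := ⟨n - 1, by omega⟩
    exact orderOf_eq_prime_pow (by simpa using hYne) hX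
  have hordx : orderOf x = p ^ n := by
    rw [← hordX, ← Subgroup.orderOf_coe x]
  have hcard : Nat.card (Subgroup.zpowers x) = p ^ n := by rw [Nat.card_zpowers, hordx]
  have hxp : IsPGroup p (Subgroup.zpowers x) := IsPGroup.of_card hcard
  have hzx : Subgroup.zpowers x = (Subgroup.zpowers X).subgroupOf Γ := by
    ext g
    rw [Subgroup.mem_subgroupOf, Subgroup.mem_zpowers_iff, Subgroup.mem_zpowers_iff]
    constructor
    · rintro ⟨k, rfl⟩; exact ⟨k, by simp [hx]⟩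
    · rintro ⟨k, hk⟩; exact ⟨k, Subtype.ext (by simpa [hx] using hk)⟩
  have hgen : Q ⊔ Subgroup.zpowers x = ⊤ := by
    rw [hzx, hQdef, ← Subgroup.subgroupOf_sup hQΓ hZΓ, ← hΓ, Subgroup.subgroupOf_self]
  let ρ : Representation K Γ U := (LinearEquiv.automorphismGroup.toLinearMapMonoidHom).comp Γ.subtype
  have hρ : ∀ g : Γ, ρ g = (g : U ≃ₗ[K] U).toLinearMap := fun g => rfl
  have hfaith : Function.Injective ρ := by
    intro a b hab
    exact Subtype.ext (LinearEquiv.toLinearMap_injective hab)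
  have hirr : ∀ W : Submodule K U, (∀ g ∈ Q, Submodule.map (ρ g) W ≤ W) → W = ⊥ ∨ W = ⊤ := by
    intro W hW
    refine h.2.2 W le_top (fun g hg u hu => ?_)
    exact hW ⟨g, hQΓ hg⟩ (Subgroup.mem_subgroupOf.mpr hg) ⟨u, hu, rfl⟩
  let σ : Representation K 𝒬 U := (LinearEquiv.automorphismGroup.toLinearMapMonoidHom).comp 𝒬.subtype
  have hirrσ : ∀ W : Submodule K U, (∀ g, Submodule.map (σ g) W ≤ W) → W = ⊥ ∨ W = ⊤ := by
    intro W hW
    exact h.2.2 W le_top (fun g hg u hu => hW ⟨g, hg⟩ ⟨u, hu, rfl⟩)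
  have hC : ∀ y ∈ Subgroup.zpowers x, y ≠ 1 →
      Subgroup.centralizer ({y} : Set Γ) = Subgroup.zpowers x ⊔ Subgroup.center Γ := by
    intro y hy hy1
    apply le_antisymm
    · intro g hg
      rw [Subgroup.mem_centralizer_singleton_iff] at hg
      have hgΓ : (g : U ≃ₗ[K] U) ∈ (𝒬 : Set (U ≃ₗ[K] U)) * (Subgroup.zpowers X : Set (U ≃ₗ[K] U)) := by
        rw [← hΓset]; exact g.2
      obtain ⟨a, ha, z, hz, haz⟩ := Set.mem_mul.mp hgΓ
      have hyX : (y : U ≃ₗ[K] U) ∈ Subgroup.zpowers X := by rw [hzx] at hy; exact hy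
      have hzy : Commute z (y : U ≃ₗ[K] U) := by
        obtain ⟨i, rfl⟩ := Subgroup.mem_zpowers_iff.mp hz
        obtain ⟨j, hj⟩ := Subgroup.mem_zpowers_iff.mp hyX
        rw [← hj]
        exact Commute.zpow_zpow_self X i j
      have hgy : Commute (g : U ≃ₗ[K] U) (y : U ≃ₗ[K] U) := by
        have := congrArg Subtype.val hg
        first
          | exact this
          | exact this.symm
      have hay : Commute a (y : U ≃ₗ[K] U) := by
        have e : a = g * z⁻¹ := by rw [← haz]; group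
        rw [e]; exact hgy.mul_left hzy.inv_left
      have haY := commute_top_of_commute p X n hn hX y hyX
        (fun h0 => hy1 (Subtype.ext h0)) a hay
      have hacen := hsemi a ha haY.symm.eq
      obtain ⟨c, hc⟩ := schur_scalar σ hirrσ a.toLinearMap (fun g => by
        ext u
        exact congrArg (fun f : U ≃ₗ[K] U => f u) (hacen g g.2))
      have hau : ∀ u, a u = c • u := fun u => by
        have := congrArg (fun f : U →ₗ[K] U => f u) hc
        simpa using this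
      have hacenter : (⟨a, hQΓ ha⟩ : Γ) ∈ Subgroup.center Γ := by
        rw [Subgroup.mem_center_iff]
        intro b
        apply Subtype.ext
        ext u
        show (b : U ≃ₗ[K] U) (a u) = a ((b : U ≃ₗ[K] U) u)
        rw [hau, hau, map_smul]
      have hzz : (⟨z, hZΓ hz⟩ : Γ) ∈ Subgroup.zpowers x := by
        rw [hzx]; exact hz
      have e : g = ⟨a, hQΓ ha⟩ * ⟨z, hZΓ hz⟩ := Subtype.ext haz.symm
      rw [e, sup_comm]
      exact Subgroup.mul_mem_sup hacenter hzz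
    · refine sup_le ?_ (Subgroup.center_le_centralizer _)
      intro g hg
      rw [Subgroup.mem_centralizer_singleton_iff]
      obtain ⟨i, rfl⟩ := Subgroup.mem_zpowers_iff.mp hg
      obtain ⟨j, rfl⟩ := Subgroup.mem_zpowers_iff.mp hy
      first
        | exact (Commute.zpow_zpow_self x i j).eq
        | exact (Commute.zpow_zpow_self x j i).eq
  have hex : ∃ s, (ρ x - 1) ^ s = 0 := ⟨r, hr⟩
  have hs := Nat.find_spec hex
  have hmin : ∀ k < Nat.find hex, (ρ x - 1) ^ k ≠ 0 := fun k hk => Nat.find_min hex hk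
  have hsr : Nat.find hex ≤ r := Nat.find_min' hex hr
  obtain ⟨h1, h2, h3⟩ := Cfsg.Agent.S4282.result p q hpq Q hQp x hxp hgen hC ρ hfaith hirr _ hs hmin
  rw [hcard] at h1 h2 h3
  by_cases hsN : Nat.find hex = p ^ n
  · left; omega
  · right
    obtain ⟨⟨b, hb⟩, hnab⟩ := h3 (by omega)
    refine ⟨b, ?_, hb, ?_, by omega⟩
    · by_contra hb0
      have hb00 : b = 0 := by omega
      subst hb00
      rw [pow_zero] at hb
      have hs1 : Nat.find hex = 1 := by omega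
      rw [hs1, pow_one, sub_eq_zero] at hs
      have hx1 : x = 1 := hfaith (by rw [hs, map_one])
      have hX1 : X = 1 := congrArg Subtype.val hx1
      exact hYne (by rw [hX1, one_pow])
    · intro hcomm
      apply hnab
      refine ⟨⟨fun a b => Subtype.ext (Subtype.ext ?_)⟩⟩
      have e := congrArg (Subtype.val : 𝒬 → (U ≃ₗ[K] U)) (hcomm.is_comm.comm ⟨a.1.1, a.2⟩ ⟨b.1.1, b.2⟩)
      exact e

end Cfsg.Agent.Lib.Helper82.HH
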