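import Mathlib

set_option autoImplicit false

namespace Cfsg.Agent.Lib.Helper82

open Finset

/-- In any ring, `n - ∑_{i<n} x^i` is a right multiple of `1 - x`. -/
lemma exists_natCast_sub_geom_sum {R : Type*} [Ring R] (x : R) (n : ℕ) :
    ∃ P : R, (n : R) - ∑ i ∈ range n, x ^ i = (1 - x) * P := by
  induction n with
  | zero => exact ⟨0, by simp⟩
  | succ n ih =>
    obtain ⟨P, hP⟩ := ih
    refine ⟨P + ∑ i ∈ range n, x ^ i, ?_⟩
    rw [sum_range_succ, mul_add, ← hP, mul_neg_geom_sum]
    push_cast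
    abel

/-- Two commuting endomorphisms `α β` of a finite abelian group `A`, of finite orders coprime to `|A|`:
the number of pairs `(a,b)` with `a + α b = b + β a` is `|A|` times the number of common fixed points. -/
theorem card_pairs_eq {A : Type*} [AddCommGroup A] [Finite A] (α β : Module.End ℤ A)
    (hc : Commute α β) (n m : ℕ) (hα : α ^ n = 1) (hβ : β ^ m = 1)
    (hn : (Nat.card A).Coprime n) (hm : (Nat.card A).Coprime m) :
    Nat.card {p : A × A // p.1 + α p.2 = p.2 + β p.1} =
      Nat.card A * Nat.card {v : A // α v = v ∧ β v = v} := by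
  classical
  set Nα : Module.End ℤ A := ∑ i ∈ range n, α ^ i with hNα
  set Nβ : Module.End ℤ A := ∑ i ∈ range m, β ^ i with hNβ
  have h1 : Nα * (1 - α) = 0 := by rw [hNα, geom_sum_mul_neg, hα, sub_self]
  have h2 : Nβ * (1 - β) = 0 := by rw [hNβ, geom_sum_mul_neg, hβ, sub_self]
  have h1' : (1 - α) * Nα = 0 := by rw [hNα, mul_neg_geom_sum, hα, sub_self]
  have h2' : (1 - β) * Nβ = 0 := by rw [hNβ, mul_neg_geom_sum, hβ, sub_self]
  have hcNαβ : Commute Nα β := Commute.sum_left _ _ _ (fun i _ => hc.pow_left i)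
  have hcNN : Commute Nα Nβ := Commute.sum_right _ _ _ (fun i _ => hcNαβ.pow_right i)
  obtain ⟨Pα, hPα⟩ := exists_natCast_sub_geom_sum α n
  obtain ⟨Pβ, hPβ⟩ := exists_natCast_sub_geom_sum β m
  rw [← hNα] at hPα
  rw [← hNβ] at hPβ
  -- the homomorphism
  let ψ : A × A →ₗ[ℤ] A := (1 - β) ∘ₗ (LinearMap.fst ℤ A A) - (1 - α) ∘ₗ (LinearMap.snd ℤ A A)
  have hψ : ∀ a b : A, ψ (a, b) = (a - β a) - (b - α b) := by
    intro a b
    simp [ψ]
  let C : Submodule ℤ A := LinearMap.ker (1 - α) ⊓ LinearMap.ker (1 - β)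
  have hC : ∀ v : A, v ∈ C ↔ (α v = v ∧ β v = v) := by
    intro v
    simp only [C, Submodule.mem_inf, LinearMap.mem_ker, LinearMap.sub_apply,
      Module.End.one_apply, sub_eq_zero]
    constructor
    · rintro ⟨h, h'⟩; exact ⟨h.symm, h'.symm⟩
    · rintro ⟨h, h'⟩; exact ⟨h.symm, h'.symm⟩
  let W : Submodule ℤ A := LinearMap.range ψ
  have hnm : (Nat.card A).Coprime (n * m) := Nat.Coprime.mul_right hn hm
  -- e kills W
  have heW : ∀ w ∈ W, (Nα * Nβ) w = 0 := by
    rintro w ⟨⟨a, b⟩, rfl⟩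
    have e1 : (Nα * Nβ) (ψ (a, b)) = (Nα * (Nβ * (1 - β))) a - (Nβ * (Nα * (1 - α))) b := by
      rw [hψ, map_sub]
      congr 1
      rw [hcNN.eq]
      rfl
    rw [e1, h1, h2]
    simp
  -- e on C
  have hpowα : ∀ c ∈ C, ∀ i : ℕ, (α ^ i) c = c := by
    intro c hc' i
    induction i with
    | zero => simp
    | succ i ih => rw [pow_succ, Module.End.mul_apply, ((hC c).1 hc').1, ih]
  have hpowβ : ∀ c ∈ C, ∀ i : ℕ, (β ^ i) c = c := by
    intro c hc' i
    induction i with
    | zero => simp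
    | succ i ih => rw [pow_succ, Module.End.mul_apply, ((hC c).1 hc').2, ih]
  have heC : ∀ c ∈ C, (Nα * Nβ) c = (n * m) • c := by
    intro c hc'
    have e1 : Nβ c = m • c := by
      rw [hNβ, LinearMap.sum_apply, Finset.sum_congr rfl (fun i _ => hpowβ c hc' i)]
      simp
    have e2 : Nα c = n • c := by
      rw [hNα, LinearMap.sum_apply, Finset.sum_congr rfl (fun i _ => hpowα c hc' i)]
      simp
    rw [Module.End.mul_apply, e1, map_nsmul, e2, mul_comm, mul_smul]
  have hdisj : ∀ c ∈ C, c ∈ W → c = 0 := by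
    intro c hcC hcW
    have := heC c hcC
    rw [heW c hcW] at this
    apply (nsmulCoprime hnm).injective
    simp [← this]
  -- e maps into C
  have heC' : ∀ v : A, (Nα * Nβ) v ∈ C := by
    intro v
    rw [hC]
    constructor
    · have : (1 - α) * (Nα * Nβ) = 0 := by rw [← mul_assoc, h1', zero_mul]
      have h3 := congrArg (fun f : Module.End ℤ A => f v) this
      simp only [Module.End.mul_apply, LinearMap.sub_apply, Module.End.one_apply,
        LinearMap.zero_apply, sub_eq_zero] at h3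
      exact h3.symm
    · have : (1 - β) * (Nα * Nβ) = 0 := by rw [hcNN.eq, ← mul_assoc, h2', zero_mul]
      have h3 := congrArg (fun f : Module.End ℤ A => f v) this
      simp only [Module.End.mul_apply, LinearMap.sub_apply, Module.End.one_apply,
        LinearMap.zero_apply, sub_eq_zero] at h3
      exact h3.symm
  have hdiff : ∀ v : A, (n * m) • v - (Nα * Nβ) v ∈ W := by
    intro v
    have hcomm : Commute Nα (1 - β) := (Commute.one_right _).sub_right hcNαβ
    have e : ((n * m : ℕ) : Module.End ℤ A) - Nα * Nβ = (1 - α) * (Pα * m) + (1 - β) * (Nα * Pβ) := by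
      rw [← mul_assoc, ← hPα, ← mul_assoc, ← hcomm.eq, mul_assoc, ← hPβ]
      push_cast
      noncomm_ring
    have h3 := congrArg (fun f : Module.End ℤ A => f v) e
    simp only [LinearMap.sub_apply, LinearMap.add_apply] at h3
    refine ⟨((Nα * Pβ) v, - (Pα * m) v), ?_⟩
    rw [hψ]
    have h4 : ((n * m : ℕ) : Module.End ℤ A) v = (n * m) • v := by
      rw [Module.End.natCast_apply]
    rw [← h4, h3]
    simp only [Module.End.mul_apply, LinearMap.sub_apply, Module.End.one_apply, map_neg]
    abel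
  have hCW : Nat.card C * Nat.card W = Nat.card A := by
    rw [← Nat.card_prod]
    refine Nat.card_congr (Equiv.ofBijective (fun p : C × W => (p.1 : A) + (p.2 : A)) ⟨?_, ?_⟩)
    · rintro ⟨⟨c, hc1⟩, ⟨w, hw1⟩⟩ ⟨⟨c', hc2⟩, ⟨w', hw2⟩⟩ h
      simp only at h
      have h5 : c - c' = w' - w := by
        rw [sub_eq_sub_iff_add_eq_add, h, add_comm]
      have h6 : c - c' = 0 := hdisj _ (C.sub_mem hc1 hc2) (h5 ▸ W.sub_mem hw2 hw1)
      have h7 : w' - w = 0 := h5 ▸ h6
      simp only [Prod.mk.injEq, Subtype.mk.injEq]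
      exact ⟨sub_eq_zero.1 h6, (sub_eq_zero.1 h7).symm⟩
    · intro v
      obtain ⟨v', hv'⟩ := (nsmulCoprime hnm).surjective v
      simp only [nsmulCoprime_apply] at hv'
      refine ⟨(⟨_, heC' v'⟩, ⟨_, hdiff v'⟩), ?_⟩
      simp only
      rw [← hv']
      abel
  have hK : Nat.card {p : A × A // p.1 + α p.2 = p.2 + β p.1} = Nat.card (LinearMap.ker ψ) := by
    refine Nat.card_congr (Equiv.subtypeEquivRight ?_)
    rintro ⟨a, b⟩
    rw [LinearMap.mem_ker, hψ]
    simp only
    constructor
    · intro h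
      have : a - β a = b - α b := by
        rw [sub_eq_sub_iff_add_eq_add, h]
      rw [this, sub_self]
    · intro h
      have := sub_eq_zero.1 h
      rw [sub_eq_sub_iff_add_eq_add] at this
      exact this
  have hCc : Nat.card {v : A // α v = v ∧ β v = v} = Nat.card C := by
    refine Nat.card_congr (Equiv.subtypeEquivRight ?_)
    intro v
    exact (hC v).symm
  have hKW : Nat.card (LinearMap.ker ψ) * Nat.card W = Nat.card A * Nat.card A := by
    rw [← Nat.card_prod A A]
    have := (LinearMap.ker ψ).card_eq_card_quotient_mul_card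
    rw [this]
    congr 1
    exact Nat.card_congr (ψ.quotKerEquivRange).toEquiv.symm
  rw [hK, hCc]
  have hWpos : 0 < Nat.card W := Nat.card_pos
  apply Nat.eq_of_mul_eq_mul_right hWpos
  rw [hKW, mul_assoc, hCW]

end Cfsg.Agent.Lib.Helper82
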