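import Mathlib
import Cfsg.Agent.Lib.Helper82.CoprimeCount

set_option autoImplicit false

namespace Cfsg.Agent.Lib.Helper82

/-- class number is invariant under isomorphism -/
lemma card_conjClasses_congr {H H' : Type*} [Group H] [Group H'] (e : H ≃* H') :
    Nat.card (ConjClasses H) = Nat.card (ConjClasses H') := by
  refine Nat.card_congr ⟨ConjClasses.map e.toMonoidHom, ConjClasses.map e.symm.toMonoidHom, ?_, ?_⟩
  · intro c
    obtain ⟨a, rfl⟩ := ConjClasses.mk_surjective c
    show ConjClasses.mk (e.symm (e a)) = ConjClasses.mk a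
    simp
  · intro c
    obtain ⟨a, rfl⟩ := ConjClasses.mk_surjective c
    show ConjClasses.mk (e (e.symm a)) = ConjClasses.mk a
    simp

/-- multiplicative form of `card_pairs_eq` inside a group `X` with an abelian normal subgroup `V`. -/
theorem card_pairs_eq_mul {X : Type*} [Group X] (V : Subgroup X) [V.Normal] [Finite V]
    (hab : ∀ a ∈ V, ∀ b ∈ V, a * b = b * a) (g h : X) (hgh : Commute g h)
    (hg : (Nat.card V).Coprime (orderOf g)) (hh : (Nat.card V).Coprime (orderOf h)) :
    Nat.card {p : V × V // (p.1 : X) * (g * p.2 * g⁻¹) = p.2 * (h * p.1 * h⁻¹)} =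
      Nat.card V * Nat.card {v : V // g * v * g⁻¹ = v ∧ h * v * h⁻¹ = v} := by
  classical
  have hcardA : Nat.card (Additive ↥V) = Nat.card ↥V := Nat.card_congr Additive.toMul
  let _ : CommGroup ↥V := { (inferInstance : Group ↥V) with
    mul_comm := fun a b => Subtype.ext (hab a a.2 b b.2) }
  let Φ : X →* Module.End ℤ (Additive ↥V) :=
    { toFun := fun x => (MonoidHom.toAdditive (MulAut.conjNormal x : MulAut ↥V).toMonoidHom).toIntLinearMap
      map_one' := by
        ext v
        simp
      map_mul' := by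
        intro x y
        ext v
        simp }
  have hΦ : ∀ (x : X) (v : ↥V), Φ x (Additive.ofMul v) = Additive.ofMul (MulAut.conjNormal x v) := by
    intro x v
    rfl
  have key := card_pairs_eq (Φ g) (Φ h) (by
      show Φ g * Φ h = Φ h * Φ g
      rw [← map_mul, ← map_mul, hgh.eq]) (orderOf g) (orderOf h)
    (by rw [← map_pow, pow_orderOf_eq_one, map_one]) (by rw [← map_pow, pow_orderOf_eq_one, map_one])
    (by rw [hcardA]; exact hg) (by rw [hcardA]; exact hh)
  have e1 : Nat.card {p : V × V // (p.1 : X) * (g * p.2 * g⁻¹) = p.2 * (h * p.1 * h⁻¹)} =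
      Nat.card {p : Additive ↥V × Additive ↥V // p.1 + Φ g p.2 = p.2 + Φ h p.1} := by
    refine Nat.card_congr (Equiv.subtypeEquiv (Equiv.prodCongr Additive.ofMul Additive.ofMul) ?_)
    rintro ⟨a, b⟩
    simp only [Equiv.prodCongr_apply, Prod.map_apply, hΦ]
    rw [← ofMul_mul, ← ofMul_mul, Additive.ofMul.injective.eq_iff, Subtype.ext_iff]
    simp [MulAut.conjNormal_apply]
  have e2 : Nat.card {v : V // g * v * g⁻¹ = v ∧ h * v * h⁻¹ = v} =
      Nat.card {v : Additive ↥V // Φ g v = v ∧ Φ h v = v} := by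
    refine Nat.card_congr (Equiv.subtypeEquiv Additive.ofMul ?_)
    intro v
    simp only [hΦ]
    rw [Additive.ofMul.injective.eq_iff, Additive.ofMul.injective.eq_iff, Subtype.ext_iff, Subtype.ext_iff]
    simp [MulAut.conjNormal_apply]
  rw [e1, e2, key, hcardA]

end Cfsg.Agent.Lib.Helper82
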