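import Mathlib
import Cfsg.Prelude.Def_Blocks
import Cfsg.Agent.Lib.Helper35.BlockFong
import Cfsg.Agent.Lib.Helper35.BlockNormal2
import Cfsg.Agent.Lib.Helper16.SylowConj
import Cfsg.Agent.Lib.Helper16.Transport2
import Cfsg.Agent.Lib.Lead.Residual

/-!
# Blocks over an invariant character of a normal `p'`-subgroup (Fong), helper82
-/

set_option autoImplicit false
set_option linter.unusedSectionVars false

namespace Cfsg.Agent.Lib.Helper82

open Cfsg Cfsg.Agent.Lib.Helper15 Cfsg.Agent.Lib.Helper78 Cfsg.Agent.Lib.Helper74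
  Cfsg.Agent.Lib.Helper35
open scoped ComplexConjugate

section general

variable {G : Type*} [Group G] [Fintype G] {M : Ideal AlgInt} {p : ℕ} [Fact p.Prime]

local notation "cjS" => Cfsg.Agent.Lib.Helper16.cj

/-- If a defect group `D` of the block `b` of `N ⊴ G` satisfies `C_G(D) ≤ N`, then at most one
block of `G` covers `b`. -/
theorem eq_of_covers_of_centralizer_le (N : Subgroup G) [hN : N.Normal] [Fintype N]
    (hM : IsPModular p M) {b : Set (IrrCharacter N)} (hb : IsPBlock M b)
    {D : Subgroup G} (hDN : D ≤ N) (hD : IsDefectGroup p M b (D.subgroupOf N))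
    (hC : Subgroup.centralizer (D : Set G) ≤ N)
    {B B' : Set (IrrCharacter G)} (hB : IsPBlock M B) (hB' : IsPBlock M B')
    (h : Covers N B b) (h' : Covers N B' b) : B = B' := by
  have hMp := pmod_isPrime hM
  obtain ⟨χ, hχ⟩ := IsPBlock.nonempty hMp hB
  obtain ⟨χ', hχ'⟩ := IsPBlock.nonempty hMp hB'
  obtain ⟨θ, hθ⟩ := IsPBlock.nonempty hMp hb
  -- central characters vanish off `N`
  have key : ∀ {B₁ : Set (IrrCharacter G)}, IsPBlock M B₁ → Covers N B₁ b →
      ∀ χ₁ ∈ B₁, ∀ g : G, g ∉ N → MemLocalIdeal M (centralChar (χ₁ : G → ℂ) g) := by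
    intro B₁ hB₁ hc χ₁ hχ₁ g hg
    by_contra hcon
    obtain ⟨P, hP, hPN⟩ := knorr N hM hB₁ hb hc hDN hD
    obtain ⟨x, hx⟩ := Cfsg.Agent.Lib.Helper16.minmax_b hM hB₁ hP hχ₁ hcon
    apply hg
    have hDP : D ≤ P := hPN ▸ inf_le_left
    have h1 : x⁻¹ * g * x ∈ Subgroup.centralizer (D : Set G) := by
      rw [Subgroup.mem_centralizer_iff]
      intro d hd
      have h2 := Subgroup.mem_centralizer_singleton_iff.mp
        (hx (Cfsg.Agent.Lib.Helper16.conj_mem_cj (x := x) (hDP hd)))
      calc d * (x⁻¹ * g * x) = x⁻¹ * (x * d * x⁻¹ * g) * x := by group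
        _ = x⁻¹ * (g * (x * d * x⁻¹)) * x := by rw [h2]
        _ = x⁻¹ * g * x * d := by group
    have h3 := hN.conj_mem _ (hC h1) x
    convert h3 using 1
    group
  have hs : SameBlock M (χ : G → ℂ) (χ' : G → ℂ) := by
    intro g
    by_cases hg : g ∈ N
    · have h1 := Covers.memLocalIdeal N hMp hB hb h χ hχ θ hθ ⟨g, hg⟩
      have h2 := Covers.memLocalIdeal N hMp hB' hb h' χ' hχ' θ hθ ⟨g, hg⟩
      have h3 := MemLocalIdeal.sub hMp h1 h2
      convert h3 using 1
      ring
    · exact MemLocalIdeal.sub hMp (key hB h χ hχ g hg) (key hB' h' χ' hχ' g hg)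
  exact IsPBlock.eq_of_mem_mem hMp hB hB' hχ
    (IsPBlock.mem_of_sameBlock hMp hB' hχ' (sameBlock_symm hs))

/-- A block of full defect has every subgroup of order `|G|_p` as a defect group. -/
theorem isDefectGroup_of_full_defect (hM : IsPModular p M) {B : Set (IrrCharacter G)}
    (hB : IsPBlock M B) (hd : blockDefect p B = (Nat.card G).factorization p)
    {D : Subgroup G} (hD : Nat.card D = p ^ (Nat.card G).factorization p) :
    IsDefectGroup p M B D := by
  obtain ⟨D₀, hD₀⟩ := Cfsg.Agent.Lib.Helper16.exists_isDefectGroup hM hB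
  have hc := card_of_isDefectGroup hM hB hD₀
  rw [hd] at hc
  obtain ⟨u, -, hu⟩ := Cfsg.Agent.Lib.Helper16.exists_conj_of_card_eq (p := p) (⊤ : Subgroup G) D₀ D
    le_top le_top (by rw [hc, Subgroup.card_top]) (by rw [hD, Subgroup.card_top])
  rw [← hu]
  exact Cfsg.Agent.Lib.Helper16.IsDefectGroup.conj hD₀ u

/-- If only one block covers the (singleton) block of an invariant irreducible character `θ` of
the normal `p'`-subgroup `K`, then the characters over `θ` form a block of full defect. -/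
theorem overSet_isPBlock_of_unique (K : Subgroup G) [hK : K.Normal] [Fintype K]
    (hM : IsPModular p M) (hKp : ¬ p ∣ Nat.card K) (θ : IrrCharacter K)
    (hinv : ∀ g : G, cjIrr K g θ = θ)
    (huniq : ∀ B B' : Set (IrrCharacter G), IsPBlock M B → IsPBlock M B' →
      Covers K B {θ} → Covers K B' {θ} → B = B') :
    IsPBlock M (overSet K {θ}) ∧
      blockDefect p (overSet K {θ}) = (Nat.card G).factorization p := by
  have hMp := pmod_isPrime hM
  have hb : IsPBlock M ({θ} : Set (IrrCharacter K)) :=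
    ⟨θ, (blockOf_eq_singleton_of_not_dvd hM hKp θ).symm⟩
  have hinv' : ∀ g : G, ∀ θ' ∈ ({θ} : Set (IrrCharacter K)), cjIrr K g θ' ∈
      ({θ} : Set (IrrCharacter K)) := by
    intro g θ' hθ'
    rw [Set.mem_singleton_iff] at hθ' ⊢
    rw [hθ', hinv]
  obtain ⟨B', hB', hc', hd'⟩ := exists_covering_full_defect K hM hb hinv'
  have heq : overSet K {θ} = B' := by
    ext χ
    constructor
    · intro hχ
      have := huniq _ B' (isPBlock_blockOf χ) hB' (covers_blockOf_of_mem_overSet K hMp hχ) hc'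
      rw [← this]
      exact mem_blockOf_self hMp χ
    · intro hχ
      exact mem_overSet_of_covers K hMp hb hB' hc' hχ
  rw [heq]
  refine ⟨hB', ?_⟩
  rw [hd']
  have h0 : (Nat.card K).factorization p = 0 := Nat.factorization_eq_zero_of_not_dvd hKp
  have h1 : blockDefect p ({θ} : Set (IrrCharacter K)) = 0 := by
    unfold blockDefect
    rw [h0, Nat.zero_sub]
  rw [h1, zero_add, ← K.index_mul_card, Nat.factorization_mul Subgroup.index_ne_zero_of_finite
    Nat.card_pos.ne', Finsupp.add_apply, h0, add_zero]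

/-- an intermediate constituent over an invariant character -/
theorem exists_mid_constituent (K L : Subgroup G) [hK : K.Normal] [Fintype K] [Fintype L]
    [Fintype (K.subgroupOf L)] (hKL : K ≤ L) (θ : IrrCharacter K)
    (hinv : ∀ g : G, cjIrr K g θ = θ) (χ : IrrCharacter G)
    (hχ : classInner (fun k : K => (χ : G → ℂ) k) (θ : K → ℂ) ≠ 0) :
    ∃ ψ : IrrCharacter L, classInner (fun l : L => (χ : G → ℂ) l) (ψ : L → ℂ) ≠ 0 ∧
      classInner (fun k : K.subgroupOf L => (ψ : L → ℂ) k)
        (Cfsg.Agent.Lib.Helper16.downIrr hKL θ : K.subgroupOf L → ℂ) ≠ 0 := by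
  obtain ⟨ψ, hψ⟩ := Cfsg.Agent.Lib.Helper80.exists_constituent_restrict χ L
  obtain ⟨θ', hθ'⟩ := Cfsg.Agent.Lib.Helper80.exists_constituent_restrict ψ (K.subgroupOf L)
  refine ⟨ψ, hψ, ?_⟩
  have h1 := restrict_eq_smul_of_invariant K χ.2 θ.2 hχ
    (fun g => congrArg Subtype.val (hinv g))
  have h2 := inner_ne_zero_of_constituent (resLin (K.subgroupOf L))
    (fun γ hγ => char_restrict hγ _) (char_restrict (irr_char χ.2) L) ψ.2 hψ (irr_char θ'.2) hθ'
  have h3 : resLin (K.subgroupOf L) (fun l : L => (χ : G → ℂ) l) =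
      classInner (fun k : K => (χ : G → ℂ) k) (θ : K → ℂ) •
        (Cfsg.Agent.Lib.Helper16.downIrr hKL θ : K.subgroupOf L → ℂ) := by
    funext x
    have := congrFun h1 ⟨((x : L) : G), x.2⟩
    simpa [resLin_apply, Cfsg.Agent.Lib.Helper16.downIrr_apply] using this
  rw [h3, Helper15.classInner_smul_left] at h2
  have h4 := irr_eq_of_inner_ne_zero (Cfsg.Agent.Lib.Helper16.downIrr hKL θ).2 θ'.2
    (right_ne_zero_of_mul h2)
  rw [h4]
  exact hθ'

/-- **Fong's theorem, general form.**  Let `K ≤ L` be normal subgroups of `G` with `K` a `p'`-group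
and `L / K` a `p`-group, `Q` a Sylow `p`-subgroup of `L` with `C_G(Q) ≤ L`, and `θ` a `G`-invariant
irreducible character of `K`.  Then the irreducible characters of `G` over `θ` form a block of
full defect. -/
theorem fong_block (K L Q : Subgroup G) [hK : K.Normal] [hL : L.Normal] [Fintype K]
    (hM : IsPModular p M) (hKp : ¬ p ∣ Nat.card K) (hKL : K ≤ L)
    (hidx : ∃ k : ℕ, K.relIndex L = p ^ k) (hQL : Q ≤ L)
    (hQ : Nat.card Q = p ^ (Nat.card L).factorization p)
    (hCQ : Subgroup.centralizer (Q : Set G) ≤ L)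
    (θ : IrrCharacter K) (hinv : ∀ g : G, cjIrr K g θ = θ) :
    IsPBlock M (overSet K {θ}) ∧
      blockDefect p (overSet K {θ}) = (Nat.card G).factorization p := by
  classical
  have hMp := pmod_isPrime hM
  have : Fintype L := Fintype.ofFinite _
  have : Fintype (K.subgroupOf L) := Fintype.ofFinite _
  set θL := Cfsg.Agent.Lib.Helper16.downIrr hKL θ with hθL
  have hinvL : ∀ l : L, cjIrr (K.subgroupOf L) l θL = θL := by
    intro l
    apply Subtype.ext
    funext x
    have h1 := congrFun (congrArg Subtype.val (hinv (l : G))) ⟨((x : L) : G), x.2⟩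
    exact h1
  have hcardK : Nat.card (K.subgroupOf L) = Nat.card K :=
    Nat.card_congr (Subgroup.subgroupOfEquivOfLe hKL).toEquiv
  have hKLp : ¬ p ∣ Nat.card (K.subgroupOf L) := by rw [hcardK]; exact hKp
  have hbs : IsPBlock M ({θL} : Set (IrrCharacter (K.subgroupOf L))) :=
    ⟨θL, (blockOf_eq_singleton_of_not_dvd hM hKLp θL).symm⟩
  obtain ⟨hbL, hdL⟩ := overSet_isPBlock_of_unique (K.subgroupOf L) hM hKLp θL hinvL
    (fun B B' hB hB' h h' => eq_of_covers_of_index _ hM hidx hbs hB hB' h h')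
  have hQd : IsDefectGroup p M (overSet (K.subgroupOf L) {θL}) (Q.subgroupOf L) := by
    apply isDefectGroup_of_full_defect hM hbL hdL
    rw [Nat.card_congr (Subgroup.subgroupOfEquivOfLe hQL).toEquiv, hQ]
  apply overSet_isPBlock_of_unique K hM hKp θ hinv
  have tower : ∀ B₁ : Set (IrrCharacter G), Covers K B₁ {θ} →
      Covers L B₁ (overSet (K.subgroupOf L) {θL}) := by
    rintro B₁ ⟨χ, hχ, θ', hθ', h⟩
    rw [Set.mem_singleton_iff] at hθ'
    subst hθ'
    obtain ⟨ψ, h1, h2⟩ := exists_mid_constituent K L hKL θ' hinv χ h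
    exact ⟨χ, hχ, ψ, ⟨θL, rfl, h2⟩, h1⟩
  intro B B' hB hB' h h'
  exact eq_of_covers_of_centralizer_le L hM hbL hQL hQd hCQ hB hB' (tower B h) (tower B' h')

/-- **Fong's theorem**, with the centralizer condition stated modulo `K`:
`C_{G/K}(L/K) ≤ L/K`. -/
theorem fong_block' (K L : Subgroup G) [hK : K.Normal] [hL : L.Normal] [Fintype K]
    (hM : IsPModular p M) (hKp : ¬ p ∣ Nat.card K) (hKL : K ≤ L)
    (hidx : ∃ k : ℕ, K.relIndex L = p ^ k)
    (hC : ∀ x : G, (∀ l ∈ L, x * l * x⁻¹ * l⁻¹ ∈ K) → x ∈ L)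
    (θ : IrrCharacter K) (hinv : ∀ g : G, cjIrr K g θ = θ) :
    IsPBlock M (overSet K {θ}) ∧
      blockDefect p (overSet K {θ}) = (Nat.card G).factorization p := by
  obtain ⟨P⟩ : Nonempty (Sylow p L) := inferInstance
  obtain ⟨k, hk⟩ := hidx
  have hcardK : Nat.card (K.subgroupOf L) = Nat.card K :=
    Nat.card_congr (Subgroup.subgroupOfEquivOfLe hKL).toEquiv
  have hcop : (Nat.card (K.subgroupOf L)).Coprime p := by
    rw [hcardK]
    exact ((Fact.out : p.Prime).coprime_iff_not_dvd.mpr hKp).symm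
  have hcompl := Cfsg.Agent.Lib.Lead.isComplement'_sylow_of_coprime_of_index hcop hk P
  refine fong_block K L ((P : Subgroup L).map L.subtype) hM hKp hKL ⟨k, hk⟩
    (Subgroup.map_subtype_le _) ?_ ?_ θ hinv
  · rw [Subgroup.card_map_of_injective L.subtype_injective]
    exact P.card_eq_multiplicity
  · intro x hx
    apply hC
    intro l hl
    obtain ⟨⟨n, q⟩, hnq, -⟩ := hcompl.existsUnique (⟨l, hl⟩ : L)
    have hl' : l = ((n : L) : G) * ((q : L) : G) := by
      have := congrArg Subtype.val hnq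
      simpa using this.symm
    have hq : x * ((q : L) : G) = ((q : L) : G) * x := by
      have := (Subgroup.mem_centralizer_iff.mp hx) ((q : L) : G) ⟨(q : L), q.2, rfl⟩
      exact this.symm
    have hn : ((n : L) : G) ∈ K := n.2
    have : x * l * x⁻¹ * l⁻¹ = (x * ((n : L) : G) * x⁻¹) * ((n : L) : G)⁻¹ := by
      rw [hl']
      calc x * (((n : L) : G) * ((q : L) : G)) * x⁻¹ * (((n : L) : G) * ((q : L) : G))⁻¹
          = x * ((n : L) : G) * x⁻¹ * (x * ((q : L) : G)) * x⁻¹ * ((q : L) : G)⁻¹ *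
              ((n : L) : G)⁻¹ := by group
        _ = (x * ((n : L) : G) * x⁻¹) * ((n : L) : G)⁻¹ := by rw [hq]; group
    rw [this]
    exact K.mul_mem (hK.conj_mem _ hn x) (K.inv_mem hn)

end general

end Cfsg.Agent.Lib.Helper82
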