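import Mathlib
import Cfsg.Prelude.Def_Blocks
import Cfsg.Agent.Lib.Helper82.FongBlock
import Cfsg.Agent.Lib.Helper47.AxB
import Cfsg.Agent.Lib.Lead.Cores
import Cfsg.Agent.Lib.Helper16.Induced
import Cfsg.Agent.Lib.Helper16.BlockIdem
import Cfsg.Agent.S4444

/-!
# Local structure of `p`-constrained groups modulo a normal `p'`-subgroup (helper82)
-/

set_option autoImplicit false
set_option linter.unusedSectionVars false

namespace Cfsg.Agent.Lib.Helper82

open Cfsg

section grp

variable {G : Type*} [Group G] [Finite G] {p : ℕ} [Fact p.Prime]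

/-- Coprime lifting of fixed points: a coset of the normal `p'`-subgroup `K` which is stable
under conjugation by the `p`-subgroup `R` contains an element centralizing `R`. -/
theorem exists_mul_mem_centralizer (K R : Subgroup G) [hK : K.Normal] (hKp : ¬ p ∣ Nat.card K)
    (hR : IsPGroup p R) (x : G) (hx : ∀ r ∈ R, x⁻¹ * r * x * r⁻¹ ∈ K) :
    ∃ k ∈ K, x * k ∈ Subgroup.centralizer (R : Set G) := by
  classical
  let S := {y : G // x⁻¹ * y ∈ K}
  let _ : MulAction R S :=
    { smul := fun r y => ⟨(r : G) * y * (r : G)⁻¹, by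
        have h1 : x⁻¹ * ((r : G) * y * (r : G)⁻¹) =
            (x⁻¹ * r * x * (r : G)⁻¹) * ((r : G) * (x⁻¹ * y) * (r : G)⁻¹) := by group
        rw [h1]
        exact K.mul_mem (hx r r.2) (hK.conj_mem _ y.2 r)⟩
      one_smul := fun y => Subtype.ext (by
        show ((1 : R) : G) * y * ((1 : R) : G)⁻¹ = y
        simp)
      mul_smul := fun r s y => Subtype.ext (by
        show ((r * s : R) : G) * y * ((r * s : R) : G)⁻¹ = (r : G) * ((s : G) * y * (s : G)⁻¹) * (r : G)⁻¹
        simp only [Subgroup.coe_mul]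
        group) }
  have hcard : Nat.card S = Nat.card K := Nat.card_congr
    { toFun := fun y => ⟨x⁻¹ * y, y.2⟩
      invFun := fun k => ⟨x * k, by simp⟩
      left_inv := fun y => Subtype.ext (by simp)
      right_inv := fun k => Subtype.ext (by simp) }
  obtain ⟨y, hy⟩ := hR.nonempty_fixed_point_of_prime_not_dvd_card S (by rw [hcard]; exact hKp)
  refine ⟨x⁻¹ * y, y.2, ?_⟩
  rw [mul_inv_cancel_left, Subgroup.mem_centralizer_iff]
  intro r hr
  have h1 := congrArg Subtype.val (hy ⟨r, hr⟩)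
  have h2 : r * (y : G) * r⁻¹ = y := h1
  calc r * (y : G) = r * (y : G) * r⁻¹ * r := by group
    _ = y * r := by rw [h2]

/-- a `p'`-element of a `p`-group is trivial -/
theorem eq_one_of_mem_isPGroup_of_coprime {X : Type*} [Group X] {P : Subgroup X}
    (hP : IsPGroup p P) {a : X} (ha : a ∈ P) (hc : (orderOf a).Coprime p) : a = 1 := by
  obtain ⟨k, hk⟩ := hP ⟨a, ha⟩
  have hk' : a ^ p ^ k = 1 := by simpa using congrArg Subtype.val hk
  have h1 : orderOf a ∣ p ^ k := orderOf_dvd_of_pow_eq_one hk'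
  have h2 : (orderOf a).Coprime (p ^ k) := Nat.Coprime.pow_right k hc
  have h3 : orderOf a = 1 := Nat.Coprime.eq_one_of_dvd h2 h1
  exact orderOf_eq_one_iff.mp h3

/-- `p`-constraint modulo `K` passes to centralizers of `p`-subgroups (Thompson's `A × B`
lemma). -/
theorem centralizer_pCore_quot_le (K R : Subgroup G) [hK : K.Normal] (hKp : ¬ p ∣ Nat.card K)
    (hR : IsPGroup p R)
    (hG : Subgroup.centralizer (pCore p (G ⧸ K) : Set (G ⧸ K)) ≤ pCore p (G ⧸ K))
    (C : Subgroup G) (hC : C = Subgroup.centralizer (R : Set G))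
    (N : Subgroup C) [hN : N.Normal] (hNK : ∀ c : C, c ∈ N ↔ (c : G) ∈ K) :
    Subgroup.centralizer (pCore p (C ⧸ N) : Set (C ⧸ N)) ≤ pCore p (C ⧸ N) := by
  classical
  set ρ := QuotientGroup.mk' K with hρ
  set π := QuotientGroup.mk' N with hπ
  have hρ1 : ∀ g : G, ρ g = 1 ↔ g ∈ K := fun g => QuotientGroup.eq_one_iff g
  have hπ1 : ∀ c : C, π c = 1 ↔ c ∈ N := fun c => QuotientGroup.eq_one_iff c
  let ι : C ⧸ N →* G ⧸ K := QuotientGroup.lift N (ρ.comp C.subtype) (by
    intro c hc
    show ρ (c : G) = 1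
    exact (hρ1 _).mpr ((hNK c).mp hc))
  have hι : ∀ c : C, ι (π c) = ρ (c : G) := fun c => rfl
  have hιinj : Function.Injective ι := by
    rw [injective_iff_map_eq_one]
    intro y hy
    obtain ⟨c, rfl⟩ := QuotientGroup.mk'_surjective N y
    rw [hι, hρ1] at hy
    exact (hπ1 c).mpr ((hNK c).mpr hy)
  set Lb := pCore p (G ⧸ K) with hLb
  have hLbp : IsPGroup p Lb := Cfsg.Agent.Lib.Lead.pCore_isPGroup p _
  have hLbn : Lb.Normal := Cfsg.Agent.Lib.Lead.pCore_normal' p _
  set Y := Lb.comap ι with hY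
  have hYn : Y.Normal := hLbn.comap ι
  have hYp : IsPGroup p Y := hLbp.comap_of_injective ι hιinj
  have hYle : Y ≤ pCore p (C ⧸ N) := Cfsg.Agent.Lib.Lead.le_pCore hYn hYp
  set Z := Subgroup.centralizer (Y : Set (C ⧸ N)) with hZ
  have hZn : Z.Normal := inferInstance
  -- `p'`-elements of `Z` are trivial
  have key : ∀ a ∈ Z, (orderOf a).Coprime p → a = 1 := by
    intro a haZ hao
    obtain ⟨c, rfl⟩ := QuotientGroup.mk'_surjective N a
    have hao' : (orderOf (ρ (c : G))).Coprime p := by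
      rw [← hι, orderOf_injective ι hιinj]
      exact hao
    have hcomm := Cfsg.Agent.Lib.Helper47.thompson_AxB (p := p) (R := Lb) (B := R.map ρ)
      (a := ρ (c : G)) hLbp (hR.map ρ) hao'
      (by rw [Subgroup.normalizer_eq_top]; exact Subgroup.mem_top _)
      (by rw [Subgroup.normalizer_eq_top]; exact le_top)
      (by
        rw [Subgroup.mem_centralizer_iff]
        rintro _ ⟨r, hr, rfl⟩
        have hc2 : (c : G) ∈ Subgroup.centralizer (R : Set G) := by rw [← hC]; exact c.2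
        have := (Subgroup.mem_centralizer_iff.mp hc2) r hr
        rw [← map_mul, ← map_mul, this])
      (by
        rintro xb ⟨hxL, hxR⟩
        obtain ⟨x, rfl⟩ := QuotientGroup.mk'_surjective K xb
        have hx : ∀ r ∈ R, x⁻¹ * r * x * r⁻¹ ∈ K := by
          intro r hr
          have h1 := (Subgroup.mem_centralizer_iff.mp hxR) (ρ r) ⟨r, hr, rfl⟩
          rw [← hρ1]
          simp only [map_mul, map_inv]
          have h2 : ρ r * ρ x = ρ x * ρ r := h1
          rw [mul_assoc (ρ x)⁻¹, h2]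
          group
        obtain ⟨k, hk, hxk⟩ := exists_mul_mem_centralizer K R hKp hR x hx
        have h3 : ρ (x * k) = ρ x := by
          rw [map_mul, (hρ1 k).mpr hk, mul_one]
        rw [← hC] at hxk
        have h4 : π (⟨x * k, hxk⟩ : C) ∈ Y := by
          rw [hY, Subgroup.mem_comap, hι]
          show ρ (x * k) ∈ Lb
          rw [h3]
          exact hxL
        have h5 := (Subgroup.mem_centralizer_iff.mp haZ) _ h4
        have h6 := congrArg ι h5
        rw [map_mul, map_mul, hι, hι] at h6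
        show ρ x * ρ (c : G) = ρ (c : G) * ρ x
        rw [← h3]
        exact h6)
    have h7 : ρ (c : G) ∈ Subgroup.centralizer (Lb : Set (G ⧸ K)) := by
      rw [Subgroup.mem_centralizer_iff]
      intro y hy
      exact hcomm y hy
    have h8 := eq_one_of_mem_isPGroup_of_coprime hLbp (hG h7) hao'
    apply hιinj
    rw [hι, h8, map_one]
  have hZp : IsPGroup p Z := by
    rintro ⟨z, hz⟩
    obtain ⟨k, m, hm, hkm⟩ := Nat.exists_eq_pow_mul_and_not_dvd (orderOf_pos z).ne' p
      (Fact.out : p.Prime).ne_one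
    refine ⟨k, Subtype.ext ?_⟩
    show z ^ p ^ k = 1
    apply key _ (Z.pow_mem hz _)
    have h1 : orderOf (z ^ p ^ k) = m := by
      rw [orderOf_pow_of_dvd (pow_ne_zero _ (Fact.out : p.Prime).ne_zero) (hkm ▸ Dvd.intro _ rfl),
        hkm, Nat.mul_div_cancel_left _ (pow_pos (Fact.out : p.Prime).pos _)]
    rw [h1]
    exact ((Fact.out : p.Prime).coprime_iff_not_dvd.mpr hm).symm
  have hZle : Z ≤ pCore p (C ⧸ N) := Cfsg.Agent.Lib.Lead.le_pCore hZn hZp
  exact le_trans (Subgroup.centralizer_le hYle) hZle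

end grp

section blk

open Cfsg.Agent.Lib.Helper35 Cfsg.Agent.Lib.Helper78

variable {G : Type*} [Group G] [Fintype G] {M : Ideal AlgInt} {p : ℕ} [Fact p.Prime]

/-- **Fong's theorem**, with `p`-constraint of `G / K` as hypothesis. -/
theorem fong_block_quot (K : Subgroup G) [hK : K.Normal] [Fintype K]
    (hM : IsPModular p M) (hKp : ¬ p ∣ Nat.card K)
    (hcen : Subgroup.centralizer (pCore p (G ⧸ K) : Set (G ⧸ K)) ≤ pCore p (G ⧸ K))
    (θ : IrrCharacter K) (hinv : ∀ g : G, cjIrr K g θ = θ) :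
    IsPBlock M (overSet K {θ}) ∧
      blockDefect p (overSet K {θ}) = (Nat.card G).factorization p := by
  classical
  set L := (pCore p (G ⧸ K)).comap (QuotientGroup.mk' K) with hLdef
  have hLn : L.Normal := Subgroup.Normal.comap (Cfsg.Agent.Lib.Lead.pCore_normal' p _) _
  have hKL : K ≤ L := by
    intro x hx
    rw [hLdef, Subgroup.mem_comap]
    have : (QuotientGroup.mk' K) x = 1 := by
      rw [QuotientGroup.mk'_apply, QuotientGroup.eq_one_iff]; exact hx
    rw [this]; exact Subgroup.one_mem _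
  have hmap : L.map (QuotientGroup.mk' K) = pCore p (G ⧸ K) :=
    Subgroup.map_comap_eq_self_of_surjective (QuotientGroup.mk'_surjective _) _
  have hidx : ∃ k : ℕ, K.relIndex L = p ^ k := by
    have h1 : K.relIndex L = Nat.card (L.map (QuotientGroup.mk' K)) := by
      have h2 := Subgroup.relIndex_comap (⊥ : Subgroup (G ⧸ K)) (QuotientGroup.mk' K) L
      rw [Subgroup.relIndex_bot_left] at h2
      rw [← h2]
      congr 1
      rw [MonoidHom.comap_bot, QuotientGroup.ker_mk']
    rw [h1, hmap]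
    exact (Cfsg.Agent.Lib.Lead.pCore_isPGroup p (G ⧸ K)).exists_card_eq
  have hC : ∀ x : G, (∀ l ∈ L, x * l * x⁻¹ * l⁻¹ ∈ K) → x ∈ L := by
    intro x hx
    have h2 : (QuotientGroup.mk' K) x ∈ Subgroup.centralizer (pCore p (G ⧸ K) : Set (G ⧸ K)) := by
      rw [Subgroup.mem_centralizer_iff]
      intro y hy
      rw [SetLike.mem_coe, ← hmap] at hy
      obtain ⟨l, hl, rfl⟩ := hy
      have h3 := (QuotientGroup.eq_one_iff (N := K) _).mpr (hx l hl)
      have h4 : (QuotientGroup.mk' K) x * (QuotientGroup.mk' K) l * ((QuotientGroup.mk' K) x)⁻¹ *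
          ((QuotientGroup.mk' K) l)⁻¹ = 1 := by
        simpa using h3
      have h5 : (QuotientGroup.mk' K) x * (QuotientGroup.mk' K) l =
          (QuotientGroup.mk' K) l * (QuotientGroup.mk' K) x := by
        have := mul_inv_eq_one.mp h4
        exact mul_inv_eq_iff_eq_mul.mp this
      exact h5.symm
    exact hcen h2
  exact fong_block' K L hM hKp hKL hidx hC θ hinv

omit [Fintype G] in
/-- `C_G(Q) ≤ O_{p'p}`-type hypothesis gives `p`-constraint of `G / K`. -/
theorem centralizer_pCore_quot_le_of_sylow [Finite G] (K Q : Subgroup G) [hK : K.Normal]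
    (hKp : ¬ p ∣ Nat.card K) (hQp : IsPGroup p Q)
    (hQL : Q ≤ (pCore p (G ⧸ K)).comap (QuotientGroup.mk' K))
    (hCQ : Subgroup.centralizer (Q : Set G) ≤ (pCore p (G ⧸ K)).comap (QuotientGroup.mk' K)) :
    Subgroup.centralizer (pCore p (G ⧸ K) : Set (G ⧸ K)) ≤ pCore p (G ⧸ K) := by
  intro xb hxb
  obtain ⟨x, rfl⟩ := QuotientGroup.mk'_surjective K xb
  have hx : ∀ r ∈ Q, x⁻¹ * r * x * r⁻¹ ∈ K := by
    intro r hr
    have h1 := (Subgroup.mem_centralizer_iff.mp hxb) (QuotientGroup.mk' K r) (hQL hr)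
    rw [← QuotientGroup.eq_one_iff]
    have h2 : ((x⁻¹ * r * x * r⁻¹ : G) : G ⧸ K) = (QuotientGroup.mk' K x)⁻¹ *
        (QuotientGroup.mk' K r * QuotientGroup.mk' K x) * (QuotientGroup.mk' K r)⁻¹ := by
      simp [mul_assoc]
    rw [h2, h1]
    group
  obtain ⟨k, hk, hxk⟩ := exists_mul_mem_centralizer K Q hKp hQp x hx
  have h3 := hCQ hxk
  rw [Subgroup.mem_comap, map_mul] at h3
  have h4 : QuotientGroup.mk' K k = 1 := (QuotientGroup.eq_one_iff k).mpr hk
  rwa [h4, mul_one] at h3

end blk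

section ind

open Cfsg.Agent.Lib.Helper16 Cfsg.Agent.Lib.Helper78 Cfsg.Agent.Lib.Helper35

variable {G : Type*} [Group G] [Fintype G] {M : Ideal AlgInt} {p : ℕ} [Fact p.Prime]

/-- A block of `C_G(R)` (`R` a `p`-subgroup) induces the block `B` of `G` iff its central
character does not kill the restriction of the block idempotent of `B`. -/
theorem isInducedBlock_centralizer_iff (hM : IsPModular p M) (R C : Subgroup G)
    (hR : IsPGroup p R) (hC : C = Subgroup.centralizer (R : Set G)) [Fintype C]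
    {B : Set (IrrCharacter G)} (hB : IsPBlock M B) (ξ : IrrCharacter C) :
    IsInducedBlock M C (blockOf M (ξ : C → ℂ)) B ↔
      ¬ MemLocalIdeal M (omega (ξ : C → ℂ) (fun c : C => blockCoeff B (c : G))) := by
  classical
  have : M.IsMaximal := hM.2.1
  have : CharP (FM M) p := charP_FM hM
  have hMp := pmod_isPrime hM
  have hCH : Subgroup.centralizer (R : Set G) ≤ C := hC.ge
  have hHN : C ≤ Subgroup.normalizer (R : Set G) := by
    rw [hC]; exact Subgroup.centralizer_le_normalizer _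
  obtain ⟨χ, hχ⟩ := exists_lam_eq M ((lam M ξ).comp (brauerHom p R C hR hCH hHN))
  have h1 : ∀ z, lam M ξ (resZ C z) = lam M χ z := by
    intro z
    rw [← hχ]
    show lam M ξ (resZ C z) = lam M ξ (brauerHom p R C hR hCH hHN z)
    congr 1
    apply Subtype.ext
    show resFun C z.1 = brauerFun R C z.1
    apply ext_coeff
    intro c
    have hc : (c : G) ∈ Subgroup.centralizer (R : Set G) := by rw [← hC]; exact c.2
    simp only [resFun, brauerFun, ofFun_coeff, if_pos hc]
  have hcf : IsClassFunction C (fun c : C => blockCoeff B (c : G)) := fun g h =>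
    blockCoeff_isClassFunction B (g : G) (h : G)
  have hloc : ∀ c : C, MemLocalRing M (blockCoeff B (c : G)) := fun c =>
    memLocalRing_blockCoeff hMp hB _
  have h2 : lam M ξ (resZ C (eB M B)) =
      redC M (omega (ξ : C → ℂ) (fun c : C => blockCoeff B (c : G))) := by
    rw [lam_apply]
    show lamFun M ξ (resFun C (redFun M (blockCoeff B))) = _
    have h3 : resFun C (redFun M (blockCoeff B)) = redFun M (fun c : C => blockCoeff B (c : G)) :=
      ext_coeff fun _ => rfl
    rw [h3, lamFun_redFun ξ hcf hloc]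
  rw [← redC_eq_zero_iff (omega_memLocalRing ξ hcf hloc), ← h2]
  have hξ : ξ ∈ blockOf M (ξ : C → ℂ) := Cfsg.Agent.Lib.Helper78.mem_blockOf_self hMp ξ
  constructor
  · intro h
    obtain ⟨χ', hχ'⟩ := IsPBlock.nonempty hMp hB
    have h4 := (isInducedBlock_iff M C (isPBlock_blockOf ξ) hB hξ hχ').mp h (eB M B)
    rw [h4, lam_eB M hB, if_pos hχ']
    exact one_ne_zero
  · intro h
    rw [h1, lam_eB M hB] at h
    have hχB : χ ∈ B := by
      by_contra hcon
      rw [if_neg hcon] at h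
      exact h rfl
    exact (isInducedBlock_iff M C (isPBlock_blockOf ξ) hB hξ hχB).mpr h1

open scoped ComplexConjugate in
/-- The central character of `ξ ∈ Irr(C)` on the restriction to `C` of the idempotent of
`Irr(G | θ)`, in terms of a constituent `β` of `ξ` on `D = K ⊓ C`. -/
theorem omega_restrict_overSet (hMp : M.IsPrime) (K C D : Subgroup G) [hK : K.Normal] [Fintype K]
    [Fintype C] [Fintype D] (hD : D = K ⊓ C) (hDC : D ≤ C) (hDK : D ≤ K)
    [Fintype (D.subgroupOf C)] [hDn : (D.subgroupOf C).Normal]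
    (θ : IrrCharacter K) (hbθ : IsPBlock M ({θ} : Set (IrrCharacter K)))
    (hinv : ∀ g : G, cjIrr K g θ = θ) (ξ : IrrCharacter C) (β : IrrCharacter D)
    (hξ : classInner (fun n : D.subgroupOf C => (ξ : C → ℂ) n)
      (downIrr hDC β : D.subgroupOf C → ℂ) ≠ 0) :
    omega (ξ : C → ℂ) (fun c : C => blockCoeff (overSet K {θ}) (c : G)) =
      (Nat.card K : ℂ)⁻¹ * (θ : K → ℂ) 1 * (Nat.card D : ℂ) *
        classInner (β : D → ℂ) (fun d : D => (θ : K → ℂ) ⟨d, hDK d.2⟩) / (β : D → ℂ) 1 := by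
  classical
  have hinv' : ∀ g : G, ∀ θ' ∈ ({θ} : Set (IrrCharacter K)), cjIrr K g θ' ∈
      ({θ} : Set (IrrCharacter K)) := by
    intro g θ' hθ'
    rw [Set.mem_singleton_iff] at hθ' ⊢
    rw [hθ', hinv]
  have hext : blockCoeff (overSet K {θ}) = extendByZero K (blockCoeff {θ}) :=
    (extend_blockCoeff_eq K hMp hbθ hinv').symm
  have ha0 : ∀ c : C, c ∉ D.subgroupOf C → blockCoeff (overSet K {θ}) (c : G) = 0 := by
    intro c hc
    rw [hext]
    apply Cfsg.Agent.Lib.Helper15.extendByZero_not_mem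
    intro hcK
    apply hc
    rw [Subgroup.mem_subgroupOf, hD]
    exact ⟨hcK, c.2⟩
  have hcf : IsClassFunction C (fun c : C => blockCoeff (overSet K {θ}) (c : G)) := fun g h =>
    blockCoeff_isClassFunction _ (g : G) (h : G)
  rw [omega_eq_of_support (D.subgroupOf C) (ξ : C → ℂ) ha0,
    omega_restrict_of_over (D.subgroupOf C) ξ.2 (downIrr hDC β).2 hξ hcf]
  unfold omega
  have h1 : (downIrr hDC β : D.subgroupOf C → ℂ) 1 = (β : D → ℂ) 1 := rfl
  rw [h1]
  congr 1
  have hsing : ∀ k : K, blockCoeff ({θ} : Set (IrrCharacter K)) k =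
      (Nat.card K : ℂ)⁻¹ * ((θ : K → ℂ) 1 * conj ((θ : K → ℂ) k)) := by
    intro k
    unfold blockCoeff
    rw [finsum_mem_singleton]
  have h2 : ∑ n : D.subgroupOf C, blockCoeff (overSet K {θ}) ((n : C) : G) *
      (downIrr hDC β : D.subgroupOf C → ℂ) n =
      ∑ d : D, (Nat.card K : ℂ)⁻¹ * ((θ : K → ℂ) 1 * conj ((θ : K → ℂ) ⟨d, hDK d.2⟩)) *
        (β : D → ℂ) d := by
    apply Fintype.sum_equiv (Subgroup.subgroupOfEquivOfLe hDC).toEquiv
    intro n
    have hnK : ((n : C) : G) ∈ K := hDK n.2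
    rw [hext, Cfsg.Agent.Lib.Helper15.extendByZero_mem K _ hnK, hsing]
    rfl
  rw [h2]
  unfold classInner
  have hD0 : (Nat.card D : ℂ) ≠ 0 := by exact_mod_cast Nat.card_pos.ne'
  rw [Finset.mul_sum, Finset.mul_sum]
  apply Finset.sum_congr rfl
  intro d _
  field_simp

/-- **Principal type.**  Let `K` be a normal `p'`-subgroup of `G` with `G / K` `p`-constrained and
`θ` a `G`-invariant irreducible character of `K`.  For every `p`-subgroup `R`, exactly one block
of `C_G(R)` induces the block `Irr(G | θ)`. -/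
theorem existsUnique_isInducedBlock_overSet (hM : IsPModular p M) (K : Subgroup G) [hK : K.Normal]
    [Fintype K] (hKp : ¬ p ∣ Nat.card K)
    (hcen : Subgroup.centralizer (pCore p (G ⧸ K) : Set (G ⧸ K)) ≤ pCore p (G ⧸ K))
    (θ : IrrCharacter K) (hinv : ∀ g : G, cjIrr K g θ = θ) (R : Subgroup G) (hR : IsPGroup p R)
    (C : Subgroup G) (hC : C = Subgroup.centralizer (R : Set G)) :
    ∃! f : Set (IrrCharacter C), IsInducedBlock M C f (overSet K {θ}) := by
  classical
  have hMp := pmod_isPrime hM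
  have hp : p.Prime := hM.1
  have : Fintype C := Fintype.ofFinite _
  obtain ⟨D, hD⟩ : ∃ D : Subgroup G, D = K ⊓ C := ⟨_, rfl⟩
  have : Fintype D := Fintype.ofFinite _
  have hDC : D ≤ C := hD ▸ inf_le_right
  have hDK : D ≤ K := hD ▸ inf_le_left
  have : Fintype (D.subgroupOf C) := Fintype.ofFinite _
  have hDn : (D.subgroupOf C).Normal := by
    rw [hD, Subgroup.inf_subgroupOf_right]; infer_instance
  have hB := (fong_block_quot K hM hKp hcen θ hinv).1
  have hbθ : IsPBlock M ({θ} : Set (IrrCharacter K)) :=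
    ⟨θ, (blockOf_eq_singleton_of_not_dvd hM hKp θ).symm⟩
  have hDp : ¬ p ∣ Nat.card D := fun h => hKp (h.trans (Subgroup.card_dvd_of_le hDK))
  -- Glauberman correspondent
  have hcop : (Nat.card K).Coprime (Nat.card R) := by
    obtain ⟨n, hn⟩ := hR.exists_card_eq
    rw [hn]
    exact Nat.Coprime.pow_right n ((hp.coprime_iff_not_dvd.mpr hKp).symm)
  obtain ⟨hG1, -, -, -⟩ := Cfsg.Agent.S4444.result K R (fun s _ g hg => hK.conj_mem g hg s) hcop p hp
    hR D (by rw [hD, hC]) hDK
  obtain ⟨β, ⟨m, hm, hpm⟩, hβuniq⟩ := hG1 θ (by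
    intro s _ g g' hgg'
    have h1 := congrFun (congrArg Subtype.val (hinv s)) g
    have h2 : g' = ⟨s * g * s⁻¹, hK.conj_mem g g.2 s⟩ := Subtype.ext hgg'
    rw [h2]
    exact h1)
  -- the key equivalence
  have KL : ∀ (ξ : IrrCharacter C) (β' : IrrCharacter D),
      classInner (fun n : D.subgroupOf C => (ξ : C → ℂ) n)
        (downIrr hDC β' : D.subgroupOf C → ℂ) ≠ 0 →
      (¬ MemLocalIdeal M (omega (ξ : C → ℂ) (fun c : C => blockCoeff (overSet K {θ}) (c : G))) ↔
        β' = β) := by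
    intro ξ β' hξ
    have hθD : IsCharacter D (fun d : D => (θ : K → ℂ) ⟨d, hDK d.2⟩) :=
      Cfsg.Agent.Lib.Helper15.char_resFun hDK (Cfsg.Agent.Lib.Helper15.irr_char θ.2)
    obtain ⟨m', hm'⟩ := Cfsg.Agent.Lib.Helper15.inner_nat hθD
      (Cfsg.Agent.Lib.Helper15.irr_char β'.2)
    have hm'' : classInner (β' : D → ℂ) (fun d : D => (θ : K → ℂ) ⟨d, hDK d.2⟩) = m' := by
      rw [Cfsg.Agent.Lib.Helper15.inner_comm_of_char (Cfsg.Agent.Lib.Helper15.irr_char β'.2) hθD,
        hm']
    rw [omega_restrict_overSet hMp K C D hD hDC hDK θ hbθ hinv ξ β' hξ, hm'', irr_one_eq θ,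
      irr_one_eq β']
    set dθ := charDegree (θ : K → ℂ) with hdθ
    set dβ := charDegree (β' : D → ℂ) with hdβ
    have hdθ0 : dθ ≠ 0 := (irr_charDegree_pos θ).ne'
    have hdβ0 : dβ ≠ 0 := (irr_charDegree_pos β').ne'
    have hdθp : ¬ p ∣ dθ := fun h => hKp (h.trans (irr_charDegree_dvd_card θ))
    have hdβp : ¬ p ∣ dβ := fun h => hDp (h.trans (irr_charDegree_dvd_card β'))
    have hre : (Nat.card K : ℂ)⁻¹ * (dθ : ℂ) * (Nat.card D : ℂ) * (m' : ℂ) / (dβ : ℂ) =
        (((dθ * Nat.card D : ℕ) : ℂ) / ((Nat.card K * dβ : ℕ) : ℂ)) * (m' : ℂ) := by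
      have h1 : (Nat.card K : ℂ) ≠ 0 := by exact_mod_cast Nat.card_pos.ne'
      have h2 : (dβ : ℂ) ≠ 0 := by exact_mod_cast hdβ0
      push_cast
      field_simp
    rw [hre]
    have hfa : (dθ * Nat.card D).factorization p = 0 :=
      Nat.factorization_eq_zero_of_not_dvd (fun h => (hp.dvd_mul.mp h).elim hdθp hDp)
    have hfb : (Nat.card K * dβ).factorization p = 0 :=
      Nat.factorization_eq_zero_of_not_dvd (fun h => (hp.dvd_mul.mp h).elim hKp hdβp)
    have ha0 : dθ * Nat.card D ≠ 0 := mul_ne_zero hdθ0 Nat.card_pos.ne'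
    have hb0 : Nat.card K * dβ ≠ 0 := mul_ne_zero Nat.card_pos.ne' hdβ0
    have hu1 := memLocalRing_natCast_div hM (a := dθ * Nat.card D) hb0 (by rw [hfa, hfb])
    have hu2 := not_memLocalIdeal_natCast_div hM ha0 hb0 (by rw [hfa, hfb])
    rw [memLocalIdeal_mul_iff hMp hu1 (memLocalRing_natCast hMp m'), memLocalIdeal_natCast_iff hM]
    constructor
    · intro h
      apply hβuniq
      exact ⟨m', hm', fun h' => h (Or.inr h')⟩
    · rintro rfl h
      rcases h with h | h
      · exact hu2 h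
      · have : (m : ℂ) = m' := by rw [← hm, ← hm']
        have hmm : m = m' := by exact_mod_cast this
        exact hpm (hmm ▸ h)
  set θs := downIrr hDC β with hθs
  -- invariance of the correspondent
  have hinvs : ∀ c : C, cjIrr (D.subgroupOf C) c θs = θs := by
    intro c
    obtain ⟨ξ, hξ⟩ := exists_over (D.subgroupOf C) θs
    have h1 := (KL ξ β hξ).mpr rfl
    have h2 : classInner (fun n : D.subgroupOf C => (ξ : C → ℂ) n)
        (downIrr hDC ((downIrr hDC).symm (cjIrr (D.subgroupOf C) c θs)) :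
          D.subgroupOf C → ℂ) ≠ 0 := by
      rw [Equiv.apply_symm_apply]
      exact (over_cjIrr_iff (D.subgroupOf C) ξ c θs).mpr hξ
    have h3 := (KL ξ _ h2).mp h1
    have h4 := congrArg (downIrr hDC) h3
    rwa [Equiv.apply_symm_apply] at h4
  have hNp : ¬ p ∣ Nat.card (D.subgroupOf C) := by
    rw [Nat.card_congr (Subgroup.subgroupOfEquivOfLe hDC).toEquiv]; exact hDp
  have hNK : ∀ c : C, c ∈ D.subgroupOf C ↔ (c : G) ∈ K := by
    intro c
    rw [Subgroup.mem_subgroupOf, hD]
    exact ⟨fun h => h.1, fun h => ⟨h, c.2⟩⟩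
  have hcenC := centralizer_pCore_quot_le K R hKp hR hcen C hC (D.subgroupOf C) hNK
  have hf₀ := (fong_block_quot (D.subgroupOf C) hM hNp hcenC θs hinvs).1
  have claimA : ∀ ξ : IrrCharacter C, IsInducedBlock M C (blockOf M (ξ : C → ℂ)) (overSet K {θ}) ↔
      ξ ∈ overSet (D.subgroupOf C) {θs} := by
    intro ξ
    rw [isInducedBlock_centralizer_iff hM R C hR hC hB ξ]
    constructor
    · intro h
      obtain ⟨η, hη⟩ := Cfsg.Agent.Lib.Helper80.exists_constituent_restrict ξ (D.subgroupOf C)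
      have h2 : classInner (fun n : D.subgroupOf C => (ξ : C → ℂ) n)
          (downIrr hDC ((downIrr hDC).symm η) : D.subgroupOf C → ℂ) ≠ 0 := by
        rw [Equiv.apply_symm_apply]; exact hη
      have h3 := (KL ξ _ h2).mp h
      refine ⟨θs, rfl, ?_⟩
      rw [hθs, ← h3, Equiv.apply_symm_apply]
      exact hη
    · rintro ⟨θ', hθ', h⟩
      rw [Set.mem_singleton_iff] at hθ'
      subst hθ'
      exact (KL ξ β h).mpr rfl
  refine ⟨overSet (D.subgroupOf C) {θs}, ?_, ?_⟩
  · obtain ⟨ξ, hξ⟩ := IsPBlock.nonempty hMp hf₀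
    have := (claimA ξ).mpr hξ
    rwa [← IsPBlock.eq_blockOf hMp hf₀ hξ] at this
  · intro f hf
    obtain ⟨ξ, hξ⟩ := IsPBlock.nonempty hMp hf.1
    have h1 := hf
    rw [IsPBlock.eq_blockOf hMp hf.1 hξ] at h1
    exact IsPBlock.eq_of_mem_mem hMp hf.1 hf₀ hξ ((claimA ξ).mp h1)

end ind

end Cfsg.Agent.Lib.Helper82
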