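import Mathlib

/-!
# Landau's theorem: the order of a finite group is bounded in terms of its class number (helper82)
-/

set_option autoImplicit false

namespace Cfsg.Agent.Lib.Helper82

/-- Egyptian fractions: if `k` unit fractions add up to a fraction with denominator `D`,
the denominators are bounded in terms of `k` and `D`. -/
theorem landau_aux (k : ℕ) : ∀ D : ℕ, 0 < D → ∃ N : ℕ, ∀ s : Multiset ℕ, s.card = k →
    (∀ x ∈ s, 0 < x) → (∃ A : ℕ, (s.map (fun x : ℕ => (1 : ℚ) / x)).sum = A / D) →
    ∀ x ∈ s, x ≤ N := by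
  induction k with
  | zero =>
    intro D _
    refine ⟨0, fun s hs _ _ x hx => ?_⟩
    rw [Multiset.card_eq_zero] at hs
    simp [hs] at hx
  | succ k ih =>
    intro D hD
    set m0 := (k + 1) * D with hm0
    obtain ⟨N', hN'⟩ := ih (D * m0.factorial) (Nat.mul_pos hD (Nat.factorial_pos _))
    refine ⟨max N' m0, fun s hs hpos hsum => ?_⟩
    obtain ⟨A, hA⟩ := hsum
    have hne : s.toFinset.Nonempty := by
      rw [Multiset.toFinset_nonempty]
      intro h0
      rw [h0] at hs
      simp at hs
    obtain ⟨m, hm, hmin⟩ := Finset.exists_min_image s.toFinset id hne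
    rw [Multiset.mem_toFinset] at hm
    have hmin' : ∀ x ∈ s, m ≤ x := fun x hx => hmin x (Multiset.mem_toFinset.2 hx)
    have hmpos : 0 < m := hpos m hm
    have hmQ : (0 : ℚ) < m := by exact_mod_cast hmpos
    have hDQ : (0 : ℚ) < D := by exact_mod_cast hD
    obtain ⟨t, rfl⟩ := Multiset.exists_cons_of_mem hm
    have htcard : t.card = k := by simpa using hs
    rw [Multiset.map_cons, Multiset.sum_cons] at hA
    have htnonneg : (0 : ℚ) ≤ (t.map (fun x : ℕ => (1 : ℚ) / x)).sum := by
      apply Multiset.sum_nonneg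
      intro y hy
      obtain ⟨x, _, rfl⟩ := Multiset.mem_map.1 hy
      positivity
    have htle : (t.map (fun x : ℕ => (1 : ℚ) / x)).sum ≤ k * ((1 : ℚ) / m) := by
      have := Multiset.sum_le_card_nsmul (t.map (fun x : ℕ => (1 : ℚ) / x)) ((1 : ℚ) / m) (by
        intro y hy
        obtain ⟨x, hx, rfl⟩ := Multiset.mem_map.1 hy
        have h1 : m ≤ x := hmin' x (Multiset.mem_cons_of_mem hx)
        have h2 : (m : ℚ) ≤ x := by exact_mod_cast h1
        exact one_div_le_one_div_of_le hmQ h2)
      rw [Multiset.card_map, htcard, nsmul_eq_mul] at this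
      exact this
    -- `A ≥ 1`
    have hApos : 0 < A := by
      rcases Nat.eq_zero_or_pos A with h0 | h0
      · exfalso
        rw [h0] at hA
        have : (0 : ℚ) < 1 / (m : ℚ) := by positivity
        simp only [Nat.cast_zero, zero_div] at hA
        linarith
      · exact h0
    have hm_le : m ≤ m0 := by
      have h1 : (1 : ℚ) / D ≤ A / D := by
        apply div_le_div_of_nonneg_right _ hDQ.le
        exact_mod_cast hApos
      have h2 : (A : ℚ) / D ≤ (k + 1) * (1 / m) := by
        rw [← hA]; linarith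
      have h3 : (1 : ℚ) / D ≤ (k + 1) / m := by
        calc (1 : ℚ) / D ≤ (k + 1) * (1 / m) := h1.trans h2
          _ = (k + 1) / m := by ring
      rw [div_le_div_iff₀ hDQ hmQ] at h3
      have h4 : (m : ℚ) ≤ ((k + 1) * D : ℕ) := by
        push_cast; linarith
      exact_mod_cast h4
    obtain ⟨c, hc⟩ := Nat.dvd_factorial hmpos hm_le
    have hsumt : (t.map (fun x : ℕ => (1 : ℚ) / x)).sum = (A : ℚ) / D - 1 / m := by
      rw [← hA]; ring
    have hge : D ≤ A * m := by
      have h1 : (0 : ℚ) ≤ (A : ℚ) / D - 1 / m := hsumt ▸ htnonneg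
      have h2 : (1 : ℚ) / m ≤ (A : ℚ) / D := by linarith
      rw [div_le_div_iff₀ hmQ hDQ] at h2
      have h3 : (D : ℚ) ≤ ((A * m : ℕ) : ℚ) := by push_cast; linarith
      exact_mod_cast h3
    have hcpos : 0 < c := by
      rcases Nat.eq_zero_or_pos c with h0 | h0
      · rw [h0, mul_zero] at hc
        exact absurd hc (Nat.factorial_pos _).ne'
      · exact h0
    have hcQ : (0 : ℚ) < c := by exact_mod_cast hcpos
    have hIH := hN' t htcard (fun x hx => hpos x (Multiset.mem_cons_of_mem hx))
      ⟨(A * m - D) * c, by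
        rw [hsumt, hc]
        push_cast [Nat.cast_sub hge]
        field_simp⟩
    intro x hx
    rcases Multiset.mem_cons.1 hx with rfl | hx
    · exact hm_le.trans (le_max_right _ _)
    · exact (hIH x hx).trans (le_max_left _ _)

universe u

/-- **Landau.** The order of a finite group is bounded in terms of its number of conjugacy
classes. -/
theorem landau (K : ℕ) : ∃ N : ℕ, ∀ (G : Type u) [Group G] [Finite G],
    Nat.card (ConjClasses G) ≤ K → Nat.card G ≤ N := by
  classical
  choose F hF using fun k => landau_aux k 1 one_pos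
  refine ⟨(Finset.range (K + 1)).sup F, ?_⟩
  intro G _ _ hK
  have := Fintype.ofFinite G
  have := Fintype.ofFinite (ConjClasses G)
  set n := Nat.card G with hn
  have hnpos : 0 < n := Nat.card_pos
  let w : ConjClasses G → ℕ := fun c => c.carrier.ncard
  have hwdvd : ∀ c, w c ∣ n := by
    intro c
    obtain ⟨g, rfl⟩ := ConjClasses.mk_surjective c
    have e := MulAction.orbitProdStabilizerEquivGroup (ConjAct G) g
    have h1 : Nat.card (MulAction.orbit (ConjAct G) g × MulAction.stabilizer (ConjAct G) g) =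
        Nat.card (ConjAct G) := Nat.card_congr e
    rw [Nat.card_prod] at h1
    have h2 : w (ConjClasses.mk g) = Nat.card (MulAction.orbit (ConjAct G) g) := by
      simp only [w]
      rw [← ConjAct.orbit_eq_carrier_conjClasses]
      rfl
    rw [h2]
    exact Dvd.intro _ h1
  have hwpos : ∀ c, 0 < w c := fun c => Nat.pos_of_dvd_of_pos (hwdvd c) hnpos
  have hwsum : ∑ c : ConjClasses G, w c = n := by
    have := Group.sum_card_conj_classes_eq_card G
    rwa [finsum_eq_sum_of_fintype] at this
  let s : Multiset ℕ := (Finset.univ : Finset (ConjClasses G)).val.map (fun c => n / w c)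
  have hscard : s.card = Nat.card (ConjClasses G) := by
    simp [s, Nat.card_eq_fintype_card]
  have hspos : ∀ x ∈ s, 0 < x := by
    intro x hx
    obtain ⟨c, _, rfl⟩ := Multiset.mem_map.1 hx
    exact Nat.div_pos (Nat.le_of_dvd hnpos (hwdvd c)) (hwpos c)
  have hnQ : (n : ℚ) ≠ 0 := by exact_mod_cast hnpos.ne'
  have hssum : (s.map (fun x : ℕ => (1 : ℚ) / x)).sum = ((1 : ℕ) : ℚ) / ((1 : ℕ) : ℚ) := by
    simp only [s, Multiset.map_map, Function.comp]
    change ∑ c : ConjClasses G, (1 : ℚ) / ((n / w c : ℕ) : ℚ) = _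
    have h1 : ∀ c : ConjClasses G, (1 : ℚ) / ((n / w c : ℕ) : ℚ) = (w c : ℚ) / n := by
      intro c
      have hw0 : (w c : ℚ) ≠ 0 := by exact_mod_cast (hwpos c).ne'
      rw [Nat.cast_div (hwdvd c) hw0]
      field_simp
    rw [Finset.sum_congr rfl (fun c _ => h1 c), ← Finset.sum_div, ← Nat.cast_sum, hwsum]
    simp [hnQ]
  have hmem : n ∈ s := by
    refine Multiset.mem_map.2 ⟨ConjClasses.mk 1, Finset.mem_univ _, ?_⟩
    have : w (ConjClasses.mk (1 : G)) = 1 := by
      simp only [w]
      rw [Set.ncard_eq_one]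
      refine ⟨1, ?_⟩
      ext x
      rw [ConjClasses.mem_carrier_iff_mk_eq, ConjClasses.mk_eq_mk_iff_isConj, Set.mem_singleton_iff,
        isConj_one_left]
    rw [this, Nat.div_one]
  have h1 := hF (Nat.card (ConjClasses G)) s hscard hspos ⟨1, hssum⟩ n hmem
  refine h1.trans ?_
  exact Finset.le_sup (f := F) (Finset.mem_range.2 (Nat.lt_succ_of_le hK))

end Cfsg.Agent.Lib.Helper82
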